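import Mathlib
import Cfsg.Prelude.Def_RootSubgroups

set_option autoImplicit false

namespace Cfsg.Agent.Lib.Helper25.RankOne

open Cfsg

variable {G : Type*} [Group G]

theorem mem_conjBy {A : Subgroup G} {g x : G} : x ∈ conjBy A g ↔ g⁻¹ * x * g ∈ A := by
  constructor
  · rintro ⟨a, ha, rfl⟩
    simpa [mul_assoc] using ha
  · intro h
    exact ⟨g⁻¹ * x * g, h, by simp [mul_assoc]⟩

theorem conj_mem_conjBy {A : Subgroup G} {g a : G} (ha : a ∈ A) : g * a * g⁻¹ ∈ conjBy A g := by
  rw [mem_conjBy]; simpa [mul_assoc] using ha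

theorem conjBy_one (A : Subgroup G) : conjBy A 1 = A := by
  ext x; simp

theorem conjBy_conjBy (A : Subgroup G) (g h : G) : conjBy (conjBy A h) g = conjBy A (g * h) := by
  ext x; simp [mul_assoc]

theorem conjBy_inv_cancel (A : Subgroup G) (g : G) : conjBy (conjBy A g) g⁻¹ = A := by
  rw [conjBy_conjBy, inv_mul_cancel, conjBy_one]

theorem conjBy_cancel_inv (A : Subgroup G) (g : G) : conjBy (conjBy A g⁻¹) g = A := by
  rw [conjBy_conjBy, mul_inv_cancel, conjBy_one]

theorem conjBy_injective (g : G) {A B : Subgroup G} (h : conjBy A g = conjBy B g) : A = B := by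
  have := congrArg (fun C => conjBy C g⁻¹) h
  simpa [conjBy_inv_cancel] using this

theorem conjBy_eq_iff {A B : Subgroup G} {g : G} : conjBy A g = B ↔ A = conjBy B g⁻¹ := by
  constructor
  · rintro rfl; rw [conjBy_inv_cancel]
  · rintro rfl; rw [conjBy_cancel_inv]

theorem conjBy_of_mem {A : Subgroup G} {g : G} (hg : g ∈ A) : conjBy A g = A := by
  ext x
  rw [mem_conjBy]
  constructor
  · intro h
    have := A.mul_mem (A.mul_mem hg h) (A.inv_mem hg)
    simpa [mul_assoc] using this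
  · intro h
    exact A.mul_mem (A.mul_mem (A.inv_mem hg) h) hg

theorem mem_normalizer_iff_conjBy {A : Subgroup G} {g : G} :
    g ∈ Subgroup.normalizer (A : Set G) ↔ conjBy A g = A :=
  Subgroup.mem_normalizer_iff_map_conj_eq

theorem conjBy_le_conjBy {A B : Subgroup G} (g : G) (h : A ≤ B) : conjBy A g ≤ conjBy B g :=
  Subgroup.map_mono h

theorem conjBy_sup (A B : Subgroup G) (g : G) : conjBy (A ⊔ B) g = conjBy A g ⊔ conjBy B g :=
  Subgroup.map_sup A B _

theorem conjBy_ne_bot {A : Subgroup G} (g : G) (h : A ≠ ⊥) : conjBy A g ≠ ⊥ := by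
  intro hb
  apply h
  have : conjBy A g = conjBy ⊥ g := by rw [hb]; ext x; simp
  exact conjBy_injective g this

/-- conjugation as a group isomorphism onto the conjugate subgroup -/
noncomputable def conjByEquiv (A : Subgroup G) (g : G) : A ≃* conjBy A g :=
  A.equivMapOfInjective (MulAut.conj g).toMonoidHom (MulAut.conj g).injective

theorem isNilpotent_conjBy {A : Subgroup G} (g : G) (h : Group.IsNilpotent A) :
    Group.IsNilpotent (conjBy A g) :=
  (Group.nilpotent_of_mulEquiv (conjByEquiv A g))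

theorem isMulCommutative_conjBy {A : Subgroup G} (g : G) (h : IsMulCommutative A) :
    IsMulCommutative (conjBy A g) := by
  constructor
  constructor
  rintro ⟨x, hx⟩ ⟨y, hy⟩
  rw [mem_conjBy] at hx hy
  have := h.is_comm.comm ⟨_, hx⟩ ⟨_, hy⟩
  have h2 : (g⁻¹ * x * g) * (g⁻¹ * y * g) = (g⁻¹ * y * g) * (g⁻¹ * x * g) := congrArg Subtype.val this
  apply Subtype.ext
  show x * y = y * x
  have h3 : g⁻¹ * (x * y) * g = g⁻¹ * (y * x) * g := by
    simpa [mul_assoc] using h2
  simpa using h3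

theorem comm_of_isMulCommutative {A : Subgroup G} (h : IsMulCommutative A) {x y : G}
    (hx : x ∈ A) (hy : y ∈ A) : x * y = y * x :=
  congrArg Subtype.val (h.is_comm.comm ⟨x, hx⟩ ⟨y, hy⟩)

/-! ### Rank one pairs -/

theorem rankOneCondition_conjBy {A B : Subgroup G} (g : G) (h : RankOneCondition A B) :
    RankOneCondition (conjBy A g) (conjBy B g) := by
  intro a ha ha1
  rw [mem_conjBy] at ha
  have ha1' : g⁻¹ * a * g ≠ 1 := by
    intro h1
    apply ha1
    have : a = g * (g⁻¹ * a * g) * g⁻¹ := by simp [mul_assoc]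
    rw [this, h1]; simp
  obtain ⟨b, hb, hb1, hab⟩ := h _ ha ha1'
  refine ⟨g * b * g⁻¹, conj_mem_conjBy hb, ?_, ?_⟩
  · intro h1
    apply hb1
    have : b = g⁻¹ * (g * b * g⁻¹) * g := by simp [mul_assoc]
    rw [this, h1]; simp
  · rw [conjBy_conjBy, conjBy_conjBy]
    have e1 : (g * b * g⁻¹)⁻¹ * g = g * b⁻¹ := by simp [mul_assoc]
    have e2 : a⁻¹ * g = g * (g⁻¹ * a * g)⁻¹ := by simp [mul_assoc]
    rw [e1, e2, ← conjBy_conjBy, ← conjBy_conjBy, hab]

theorem isRankOnePair_conjBy {A B : Subgroup G} (g : G) (h : IsRankOnePair A B) :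
    IsRankOnePair (conjBy A g) (conjBy B g) where
  ne := fun hne => h.ne (conjBy_injective g hne)
  nilpotent_left := isNilpotent_conjBy g h.nilpotent_left
  nilpotent_right := isNilpotent_conjBy g h.nilpotent_right
  cond_left := rankOneCondition_conjBy g h.cond_left
  cond_right := rankOneCondition_conjBy g h.cond_right

section Pair

variable {A B : Subgroup G}

theorem inf_normalizer_eq_bot (h : IsRankOnePair A B) :
    A ⊓ Subgroup.normalizer (B : Set G) = ⊥ := by
  rw [eq_bot_iff]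
  rintro a ⟨haA, haN⟩
  rw [Subgroup.mem_bot]
  by_contra ha1
  obtain ⟨b, hb, -, hab⟩ := h.cond_left a haA ha1
  have h1 : conjBy B a⁻¹ = B := mem_normalizer_iff_conjBy.mp (inv_mem haN)
  rw [h1] at hab
  have h2 : A = conjBy B b := by rw [← hab, conjBy_cancel_inv]
  rw [conjBy_of_mem hb] at h2
  exact h.ne h2

theorem inf_normalizer_eq_bot' (h : IsRankOnePair A B) :
    B ⊓ Subgroup.normalizer (A : Set G) = ⊥ :=
  inf_normalizer_eq_bot (RankOnePair_symm h)

theorem eq_one_of_mem_of_conjBy_eq (h : IsRankOnePair A B) {a : G} (ha : a ∈ A)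
    (hB : conjBy B a = B) : a = 1 := by
  have : a ∈ A ⊓ Subgroup.normalizer (B : Set G) := ⟨ha, mem_normalizer_iff_conjBy.mpr hB⟩
  rw [inf_normalizer_eq_bot h] at this
  exact this

theorem eq_one_of_mem_of_conjBy_eq' (h : IsRankOnePair A B) {b : G} (hb : b ∈ B)
    (hA : conjBy A b = A) : b = 1 :=
  eq_one_of_mem_of_conjBy_eq (RankOnePair_symm h) hb hA

theorem inf_eq_bot (h : IsRankOnePair A B) : A ⊓ B = ⊥ := by
  rw [eq_bot_iff]
  rintro x ⟨hA, hB⟩
  exact eq_one_of_mem_of_conjBy_eq h hA (conjBy_of_mem hB)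

theorem conjBy_right_injOn (h : IsRankOnePair A B) {a a' : G} (ha : a ∈ A) (ha' : a' ∈ A)
    (he : conjBy B a = conjBy B a') : a = a' := by
  have h1 : conjBy B (a'⁻¹ * a) = B := by
    rw [← conjBy_conjBy, he, conjBy_inv_cancel]
  have := eq_one_of_mem_of_conjBy_eq h (A.mul_mem (A.inv_mem ha') ha) h1
  exact (inv_mul_eq_one.mp this).symm

theorem conjBy_left_injOn (h : IsRankOnePair A B) {b b' : G} (hb : b ∈ B) (hb' : b' ∈ B)
    (he : conjBy A b = conjBy A b') : b = b' :=
  conjBy_right_injOn (RankOnePair_symm h) hb hb' he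

theorem left_ne_bot (h : IsRankOnePair A B) : A ≠ ⊥ := by
  intro hA
  have hB : B = ⊥ := by
    rw [eq_bot_iff]
    intro b hb
    rw [Subgroup.mem_bot]
    by_contra hb1
    obtain ⟨a, ha, ha1, -⟩ := h.cond_right b hb hb1
    rw [hA, Subgroup.mem_bot] at ha
    exact ha1 ha
  exact h.ne (hA.trans hB.symm)

theorem right_ne_bot (h : IsRankOnePair A B) : B ≠ ⊥ := left_ne_bot (RankOnePair_symm h)

theorem exists_ne_one_left (h : IsRankOnePair A B) : ∃ a ∈ A, a ≠ 1 := by
  by_contra hcon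
  push Not at hcon
  apply left_ne_bot h
  rw [eq_bot_iff]
  intro a ha
  exact hcon a ha

theorem exists_ne_one_right (h : IsRankOnePair A B) : ∃ b ∈ B, b ≠ 1 :=
  exists_ne_one_left (RankOnePair_symm h)

theorem existsUnique_left (h : IsRankOnePair A B) {a : G} (ha : a ∈ A) (ha1 : a ≠ 1) :
    ∃! b : G, b ∈ B ∧ b ≠ 1 ∧ conjBy A b⁻¹ = conjBy B a⁻¹ := by
  obtain ⟨b, hb, hb1, hab⟩ := h.cond_left a ha ha1
  refine ⟨b, ⟨hb, hb1, hab⟩, ?_⟩
  rintro b' ⟨hb', -, hab'⟩
  have := conjBy_left_injOn h (B.inv_mem hb') (B.inv_mem hb) (hab'.trans hab.symm)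
  exact inv_injective this

theorem existsUnique_right (h : IsRankOnePair A B) {b : G} (hb : b ∈ B) (hb1 : b ≠ 1) :
    ∃! a : G, a ∈ A ∧ a ≠ 1 ∧ conjBy A b⁻¹ = conjBy B a⁻¹ := by
  obtain ⟨a, ha, ha1, hab⟩ := h.cond_right b hb hb1
  refine ⟨a, ⟨ha, ha1, hab.symm⟩, ?_⟩
  rintro a' ⟨ha', -, hab'⟩
  have := conjBy_right_injOn h (A.inv_mem ha') (A.inv_mem ha) (hab'.symm.trans hab.symm)
  exact inv_injective this

/-- `B` is a conjugate of `A` under `A ⊔ B`. -/
theorem right_mem_unipotentSubgroups (h : IsRankOnePair A B) : B ∈ unipotentSubgroups A B := by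
  obtain ⟨a, ha, ha1⟩ := exists_ne_one_left h
  obtain ⟨b, hb, -, hab⟩ := h.cond_left a ha ha1
  refine ⟨a * b⁻¹, ?_, ?_⟩
  · exact Subgroup.mul_mem _ (Subgroup.mem_sup_left ha) (Subgroup.mem_sup_right (B.inv_mem hb))
  · rw [← conjBy_conjBy, hab, conjBy_cancel_inv]

theorem left_mem_unipotentSubgroups (A B : Subgroup G) : A ∈ unipotentSubgroups A B :=
  ⟨1, one_mem _, (conjBy_one A).symm⟩

theorem conjBy_mem_unipotentSubgroups {C : Subgroup G} (hC : C ∈ unipotentSubgroups A B) {x : G}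
    (hx : x ∈ A ⊔ B) : conjBy C x ∈ unipotentSubgroups A B := by
  obtain ⟨y, hy, rfl⟩ := hC
  exact ⟨x * y, Subgroup.mul_mem _ hx hy, conjBy_conjBy A x y⟩

theorem unipotent_step (h : IsRankOnePair A B) {y : G} (hy : y ∈ A ∨ y ∈ B) {C : Subgroup G}
    (hC : C = A ∨ ∃ a ∈ A, C = conjBy B a) :
    conjBy C y = A ∨ ∃ a ∈ A, conjBy C y = conjBy B a := by
  rcases hC with hC | ⟨a, ha, hC⟩
  · rw [hC]
    rcases hy with hy | hy
    · left; exact conjBy_of_mem hy
    · by_cases hy1 : y = 1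
      · left; rw [hy1, conjBy_one]
      · right
        have hy1' : y⁻¹ ≠ 1 := by simpa using hy1
        obtain ⟨a, ha, -, hab⟩ := h.cond_right y⁻¹ (B.inv_mem hy) hy1'
        rw [inv_inv] at hab
        exact ⟨a⁻¹, A.inv_mem ha, hab.symm⟩
  · rw [hC]
    rcases hy with hy | hy
    · right; exact ⟨y * a, A.mul_mem hy ha, conjBy_conjBy B y a⟩
    · by_cases ha1 : a = 1
      · right; refine ⟨1, A.one_mem, ?_⟩
        rw [ha1, conjBy_one B]
        exact conjBy_of_mem hy
      · have ha1' : a⁻¹ ≠ 1 := by simpa using ha1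
        obtain ⟨b, hb, -, hab⟩ := h.cond_left a⁻¹ (A.inv_mem ha) ha1'
        rw [inv_inv] at hab
        rw [← hab, conjBy_conjBy]
        by_cases hyb : y * b⁻¹ = 1
        · left; rw [hyb, conjBy_one]
        · right
          have hyb' : (y * b⁻¹)⁻¹ ≠ 1 := by
            intro h1; exact hyb (inv_eq_one.mp h1)
          obtain ⟨a', ha', -, hab'⟩ := h.cond_right (y * b⁻¹)⁻¹
            (B.inv_mem (B.mul_mem hy (B.inv_mem hb))) hyb'
          rw [inv_inv] at hab'
          exact ⟨a'⁻¹, A.inv_mem ha', hab'.symm⟩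

/-- Every conjugate of `A` under `A ⊔ B` is `A` or a conjugate of `B` by an element of `A`. -/
theorem mem_unipotentSubgroups_iff (h : IsRankOnePair A B) {C : Subgroup G} :
    C ∈ unipotentSubgroups A B ↔ C = A ∨ ∃ a ∈ A, C = conjBy B a := by
  constructor
  · rintro ⟨x, hx, rfl⟩
    have key : ∀ y ∈ A ⊔ B, ∀ C : Subgroup G, (C = A ∨ ∃ a ∈ A, C = conjBy B a) →
        (conjBy C y = A ∨ ∃ a ∈ A, conjBy C y = conjBy B a) := by
      intro y hy
      rw [Subgroup.sup_eq_closure] at hy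
      induction hy using Subgroup.closure_induction'' with
      | mem y hy =>
        intro C hC
        exact unipotent_step h hy hC
      | inv_mem y hy =>
        intro C hC
        refine unipotent_step h ?_ hC
        rcases hy with hy | hy
        · left; exact A.inv_mem hy
        · right; exact B.inv_mem hy
      | one =>
        intro C hC
        rw [conjBy_one]; exact hC
      | mul y z _ _ ihy ihz =>
        intro C hC
        rw [← conjBy_conjBy]
        exact ihy _ (ihz C hC)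
    exact key x hx A (Or.inl rfl)
  · rintro (rfl | ⟨a, ha, rfl⟩)
    · exact left_mem_unipotentSubgroups _ _
    · exact conjBy_mem_unipotentSubgroups (right_mem_unipotentSubgroups h) (Subgroup.mem_sup_left ha)

theorem unipotentSubgroups_comm (h : IsRankOnePair A B) :
    unipotentSubgroups B A = unipotentSubgroups A B := by
  ext C
  constructor
  · rintro ⟨x, hx, rfl⟩
    rw [sup_comm] at hx
    exact conjBy_mem_unipotentSubgroups (right_mem_unipotentSubgroups h) hx
  · rintro ⟨x, hx, rfl⟩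
    rw [sup_comm] at hx
    exact conjBy_mem_unipotentSubgroups (right_mem_unipotentSubgroups (RankOnePair_symm h)) hx

theorem right_ne_conjBy (h : IsRankOnePair A B) {a : G} (ha : a ∈ A) : conjBy B a ≠ A := by
  intro he
  have : conjBy B a = conjBy A a := by rw [he, conjBy_of_mem ha]
  exact h.ne (conjBy_injective a this).symm

theorem exists_of_mem_unipotent_ne (h : IsRankOnePair A B) {C : Subgroup G}
    (hC : C ∈ unipotentSubgroups A B) (hCA : C ≠ A) : ∃ a ∈ A, C = conjBy B a := by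
  rcases (mem_unipotentSubgroups_iff h).mp hC with hC | hC
  · exact absurd hC hCA
  · exact hC

/-- `A` acts regularly by conjugation on the conjugates of `A` other than `A`. -/
theorem existsUnique_conjBy (h : IsRankOnePair A B) {C D : Subgroup G}
    (hC : C ∈ unipotentSubgroups A B) (hD : D ∈ unipotentSubgroups A B) (hCA : C ≠ A)
    (hDA : D ≠ A) : ∃! a : G, a ∈ A ∧ conjBy C a = D := by
  obtain ⟨c, hc, rfl⟩ := exists_of_mem_unipotent_ne h hC hCA
  obtain ⟨d, hd, rfl⟩ := exists_of_mem_unipotent_ne h hD hDA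
  refine ⟨d * c⁻¹, ⟨A.mul_mem hd (A.inv_mem hc), ?_⟩, ?_⟩
  · rw [conjBy_conjBy]; simp [mul_assoc]
  · rintro a ⟨ha, hae⟩
    rw [conjBy_conjBy] at hae
    have := conjBy_right_injOn h (A.mul_mem ha hc) hd hae
    rw [← this]; simp [mul_assoc]

theorem isRankOnePair_of_mem_ne (h : IsRankOnePair A B) {C : Subgroup G}
    (hC : C ∈ unipotentSubgroups A B) (hCA : C ≠ A) : IsRankOnePair A C := by
  obtain ⟨c, hc, rfl⟩ := exists_of_mem_unipotent_ne h hC hCA
  have := isRankOnePair_conjBy c h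
  rwa [conjBy_of_mem hc] at this

/-- double transitivity of `A ⊔ B` on the conjugates of `A` -/
theorem exists_conjBy_pair (h : IsRankOnePair A B) {C₁ C₂ D₁ D₂ : Subgroup G}
    (hC₁ : C₁ ∈ unipotentSubgroups A B) (hC₂ : C₂ ∈ unipotentSubgroups A B)
    (hD₁ : D₁ ∈ unipotentSubgroups A B) (hD₂ : D₂ ∈ unipotentSubgroups A B)
    (hC : C₁ ≠ C₂) (hD : D₁ ≠ D₂) :
    ∃ x ∈ A ⊔ B, conjBy C₁ x = D₁ ∧ conjBy C₂ x = D₂ := by
  obtain ⟨x₁, hx₁, rfl⟩ := hC₁
  obtain ⟨y₁, hy₁, rfl⟩ := hD₁
  have hC₂' : conjBy C₂ x₁⁻¹ ∈ unipotentSubgroups A B :=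
    conjBy_mem_unipotentSubgroups hC₂ (Subgroup.inv_mem _ hx₁)
  have hD₂' : conjBy D₂ y₁⁻¹ ∈ unipotentSubgroups A B :=
    conjBy_mem_unipotentSubgroups hD₂ (Subgroup.inv_mem _ hy₁)
  have hC₂A : conjBy C₂ x₁⁻¹ ≠ A := by
    intro he
    apply hC
    rw [conjBy_eq_iff, inv_inv] at he
    exact he.symm
  have hD₂A : conjBy D₂ y₁⁻¹ ≠ A := by
    intro he
    apply hD
    rw [conjBy_eq_iff, inv_inv] at he
    exact he.symm
  obtain ⟨a, ⟨ha, hae⟩, -⟩ := existsUnique_conjBy h hC₂' hD₂' hC₂A hD₂A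
  refine ⟨y₁ * a * x₁⁻¹, ?_, ?_, ?_⟩
  · exact Subgroup.mul_mem _ (Subgroup.mul_mem _ hy₁ (Subgroup.mem_sup_left ha))
      (Subgroup.inv_mem _ hx₁)
  · rw [conjBy_conjBy]
    have : y₁ * a * x₁⁻¹ * x₁ = y₁ * a := by simp [mul_assoc]
    rw [this, ← conjBy_conjBy, conjBy_of_mem ha]
  · have : conjBy C₂ (y₁ * a * x₁⁻¹) = conjBy (conjBy (conjBy C₂ x₁⁻¹) a) y₁ := by
      rw [conjBy_conjBy, conjBy_conjBy, mul_assoc]
    rw [this, hae, conjBy_cancel_inv]

theorem exists_conjBy_eq_pair (h : IsRankOnePair A B) {C D : Subgroup G}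
    (hC : C ∈ unipotentSubgroups A B) (hD : D ∈ unipotentSubgroups A B) (hCD : C ≠ D) :
    ∃ x ∈ A ⊔ B, conjBy A x = C ∧ conjBy B x = D :=
  exists_conjBy_pair h (left_mem_unipotentSubgroups A B) (right_mem_unipotentSubgroups h) hC hD
    h.ne hCD

theorem isRankOnePair_of_mem_of_mem (h : IsRankOnePair A B) {C D : Subgroup G}
    (hC : C ∈ unipotentSubgroups A B) (hD : D ∈ unipotentSubgroups A B) (hCD : C ≠ D) :
    IsRankOnePair C D := by
  obtain ⟨x, -, rfl, rfl⟩ := exists_conjBy_eq_pair h hC hD hCD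
  exact isRankOnePair_conjBy x h

theorem sup_eq_of_mem_of_mem (h : IsRankOnePair A B) {C D : Subgroup G}
    (hC : C ∈ unipotentSubgroups A B) (hD : D ∈ unipotentSubgroups A B) (hCD : C ≠ D) :
    C ⊔ D = A ⊔ B := by
  obtain ⟨x, hx, rfl, rfl⟩ := exists_conjBy_eq_pair h hC hD hCD
  rw [← conjBy_sup, conjBy_of_mem hx]

theorem unipotentSubgroups_eq_of_mem_of_mem (h : IsRankOnePair A B) {C D : Subgroup G}
    (hC : C ∈ unipotentSubgroups A B) (hD : D ∈ unipotentSubgroups A B) (hCD : C ≠ D) :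
    unipotentSubgroups C D = unipotentSubgroups A B := by
  have hsup := sup_eq_of_mem_of_mem h hC hD hCD
  ext E
  constructor
  · rintro ⟨x, hx, rfl⟩
    rw [hsup] at hx
    exact conjBy_mem_unipotentSubgroups hC hx
  · intro hE
    obtain ⟨y, hy, rfl⟩ := hC
    obtain ⟨z, hz, rfl⟩ := hE
    refine ⟨z * y⁻¹, ?_, ?_⟩
    · rw [hsup]; exact Subgroup.mul_mem _ hz (Subgroup.inv_mem _ hy)
    · rw [conjBy_conjBy]; simp [mul_assoc]

/-- a member of the conjugacy class that normalizes another member is equal to it -/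
theorem eq_of_mem_of_le_normalizer (h : IsRankOnePair A B) {C D : Subgroup G}
    (hC : C ∈ unipotentSubgroups A B) (hD : D ∈ unipotentSubgroups A B)
    (hle : C ≤ Subgroup.normalizer (D : Set G)) : C = D := by
  by_contra hCD
  have hp := isRankOnePair_of_mem_of_mem h hC hD hCD
  have h1 := inf_normalizer_eq_bot hp
  have : C ≤ C ⊓ Subgroup.normalizer (D : Set G) := le_inf le_rfl hle
  rw [h1] at this
  exact left_ne_bot hp (le_bot_iff.mp this)

theorem three_unipotent (h : IsRankOnePair A B) :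
    ∃ C₁ ∈ unipotentSubgroups A B, ∃ C₂ ∈ unipotentSubgroups A B, ∃ C₃ ∈ unipotentSubgroups A B,
      C₁ ≠ C₂ ∧ C₁ ≠ C₃ ∧ C₂ ≠ C₃ := by
  obtain ⟨a, ha, ha1⟩ := exists_ne_one_left h
  refine ⟨A, left_mem_unipotentSubgroups A B, B, right_mem_unipotentSubgroups h, conjBy B a,
    conjBy_mem_unipotentSubgroups (right_mem_unipotentSubgroups h) (Subgroup.mem_sup_left ha),
    h.ne, (right_ne_conjBy h ha).symm, ?_⟩
  intro he
  exact ha1 (eq_one_of_mem_of_conjBy_eq h ha he.symm)

end Pair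


section Group

variable {X : Type*} [Group X] {A B : Subgroup X}

theorem mem_unipotentSubgroups_of_top (hX : A ⊔ B = ⊤) (x : X) :
    conjBy A x ∈ unipotentSubgroups A B := ⟨x, by rw [hX]; trivial, rfl⟩

theorem conjBy_central {C : Subgroup X} {z : X} (hz : z ∈ Subgroup.center X) : conjBy C z = C := by
  ext x
  rw [mem_conjBy]
  have : z⁻¹ * x * z = x := by
    have h1 := Subgroup.mem_center_iff.mp hz x
    rw [mul_assoc, h1, ← mul_assoc, inv_mul_cancel, one_mul]
  rw [this]

/-- a normal subgroup normalizing both `A` and `B` is central -/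
theorem le_center_of_normalizes (h : IsRankOneGroup X A B) {N : Subgroup X} (hN : N.Normal)
    (hNA : ∀ n ∈ N, conjBy A n = A) (hNB : ∀ n ∈ N, conjBy B n = B) : N ≤ Subgroup.center X := by
  obtain ⟨hX, hp⟩ := h
  intro n hn
  have hA : A ≤ Subgroup.centralizer ({n} : Set X) := by
    intro a ha
    rw [Subgroup.mem_centralizer_iff]
    intro y hy
    rw [Set.mem_singleton_iff.mp hy]
    have hc1 : n * a * n⁻¹ * a⁻¹ ∈ N := by
      have := hN.conj_mem n⁻¹ (N.inv_mem hn) a
      have h2 := N.mul_mem hn this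
      simpa [mul_assoc] using h2
    have hc2 : n * a * n⁻¹ * a⁻¹ ∈ A := by
      have h1 : n * a * n⁻¹ ∈ conjBy A n := conj_mem_conjBy ha
      rw [hNA n hn] at h1
      exact A.mul_mem h1 (A.inv_mem ha)
    have := eq_one_of_mem_of_conjBy_eq hp hc2 (hNB _ hc1)
    have h3 : n * a * n⁻¹ * a⁻¹ * a * n = a * n := by rw [this, one_mul]
    rw [← h3]; group
  have hB : B ≤ Subgroup.centralizer ({n} : Set X) := by
    intro b hb
    rw [Subgroup.mem_centralizer_iff]
    intro y hy
    rw [Set.mem_singleton_iff.mp hy]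
    have hc1 : n * b * n⁻¹ * b⁻¹ ∈ N := by
      have := hN.conj_mem n⁻¹ (N.inv_mem hn) b
      have h2 := N.mul_mem hn this
      simpa [mul_assoc] using h2
    have hc2 : n * b * n⁻¹ * b⁻¹ ∈ B := by
      have h1 : n * b * n⁻¹ ∈ conjBy B n := conj_mem_conjBy hb
      rw [hNB n hn] at h1
      exact B.mul_mem h1 (B.inv_mem hb)
    have := eq_one_of_mem_of_conjBy_eq' hp hc2 (hNA _ hc1)
    have h3 : n * b * n⁻¹ * b⁻¹ * b * n = b * n := by rw [this, one_mul]
    rw [← h3]; group
  have htop : (⊤ : Subgroup X) ≤ Subgroup.centralizer ({n} : Set X) := by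
    rw [← hX]; exact sup_le hA hB
  rw [Subgroup.mem_center_iff]
  intro g
  have := htop (Subgroup.mem_top g)
  rw [Subgroup.mem_centralizer_iff] at this
  exact (this n rfl).symm

/-- a normal subgroup of a rank one group is central or supplements `A` -/
theorem normal_dichotomy (h : IsRankOneGroup X A B) {N : Subgroup X} (hN : N.Normal) :
    N ⊔ A = ⊤ ∨ N ≤ Subgroup.center X := by
  by_cases hcase : ∀ n ∈ N, ∀ x : X, conjBy (conjBy A x) n = conjBy A x
  · right
    obtain ⟨hX, hp⟩ := h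
    refine le_center_of_normalizes ⟨hX, hp⟩ hN ?_ ?_
    · intro n hn
      have := hcase n hn 1
      rwa [conjBy_one] at this
    · intro n hn
      obtain ⟨x, -, hx⟩ := right_mem_unipotentSubgroups hp
      rw [hx]; exact hcase n hn x
  · left
    obtain ⟨hX, hp⟩ := h
    push Not at hcase
    obtain ⟨n, hn, x, hnx⟩ := hcase
    -- n' = x⁻¹ n x moves A
    have hn' : x⁻¹ * n * x ∈ N := by
      have := hN.conj_mem n hn x⁻¹
      simpa using this
    have hmove : conjBy A (x⁻¹ * n * x) ≠ A := by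
      intro he
      apply hnx
      rw [conjBy_conjBy]
      have e : n * x = x * (x⁻¹ * n * x) := by simp [mul_assoc]
      rw [e, ← conjBy_conjBy, he]
    set m := x⁻¹ * n * x with hm
    have hD : conjBy A m ∈ unipotentSubgroups A B := mem_unipotentSubgroups_of_top hX m
    have hBA : B ≠ A := hp.ne.symm
    obtain ⟨a, ⟨ha, hae⟩, -⟩ := existsUnique_conjBy hp hD (right_mem_unipotentSubgroups hp) hmove hBA
    -- B = conjBy A (a m a⁻¹)
    have hB : B = conjBy A (a * m * a⁻¹) := by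
      rw [← hae, conjBy_conjBy]
      have e : a * m = a * m * a⁻¹ * a := by simp [mul_assoc]
      calc conjBy A (a * m) = conjBy A (a * m * a⁻¹ * a) := by rw [← e]
        _ = conjBy (conjBy A a) (a * m * a⁻¹) := (conjBy_conjBy _ _ _).symm
        _ = conjBy A (a * m * a⁻¹) := by rw [conjBy_of_mem ha]
    have hm' : a * m * a⁻¹ ∈ N := hN.conj_mem m hn' a
    rw [eq_top_iff, ← hX]
    refine sup_le le_sup_right ?_
    intro b hb
    rw [hB, mem_conjBy] at hb
    have e : b = (a * m * a⁻¹) * ((a * m * a⁻¹)⁻¹ * b * (a * m * a⁻¹)) * (a * m * a⁻¹)⁻¹ := by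
      group
    rw [e]
    exact Subgroup.mul_mem _ (Subgroup.mul_mem _ (Subgroup.mem_sup_left hm') (Subgroup.mem_sup_right hb))
      (Subgroup.mem_sup_left (N.inv_mem hm'))

theorem center_ne_top (h : IsRankOneGroup X A B) : Subgroup.center X ≠ ⊤ := by
  obtain ⟨hX, hp⟩ := h
  intro hc
  obtain ⟨a, ha, ha1⟩ := exists_ne_one_left hp
  apply ha1
  apply eq_one_of_mem_of_conjBy_eq hp ha
  apply conjBy_central
  rw [hc]; trivial

theorem normalizer_ne_top (h : IsRankOneGroup X A B) : Subgroup.normalizer (A : Set X) ≠ ⊤ := by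
  obtain ⟨hX, hp⟩ := h
  intro hc
  obtain ⟨b, hb, hb1⟩ := exists_ne_one_right hp
  apply hb1
  apply eq_one_of_mem_of_conjBy_eq' hp hb
  apply mem_normalizer_iff_conjBy.mp
  rw [hc]; trivial

theorem not_isNilpotent (h : IsRankOneGroup X A B) : ¬ Group.IsNilpotent X := by
  intro hnil
  have hNC : NormalizerCondition X := Group.normalizerCondition_of_isNilpotent
  obtain ⟨hX, hp⟩ := h
  set M := Subgroup.normalizer (A : Set X) with hM
  have hMtop : M < ⊤ := lt_top_iff_ne_top.mpr (normalizer_ne_top ⟨hX, hp⟩)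
  have hlt := hNC M hMtop
  obtain ⟨g, hgN, hgM⟩ := SetLike.exists_of_lt hlt
  have hCA : conjBy A g ≠ A := fun he => hgM (mem_normalizer_iff_conjBy.mpr he)
  have hC : conjBy A g ∈ unipotentSubgroups A B := mem_unipotentSubgroups_of_top hX g
  have hle : A ≤ Subgroup.normalizer (conjBy A g : Set X) := by
    intro a ha
    have haM : a ∈ M := Subgroup.le_normalizer ha
    have hgM' : conjBy M g = M := mem_normalizer_iff_conjBy.mp hgN
    rw [← hgM', mem_conjBy] at haM
    have h1 : conjBy A (g⁻¹ * a * g) = A := mem_normalizer_iff_conjBy.mp haM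
    rw [mem_normalizer_iff_conjBy, conjBy_conjBy]
    have e : a * g = g * (g⁻¹ * a * g) := by simp [mul_assoc]
    rw [e, ← conjBy_conjBy, h1]
  exact hCA (eq_of_mem_of_le_normalizer hp (left_mem_unipotentSubgroups A B) hC hle).symm

theorem upperCentralSeries_two (h : IsRankOneGroup X A B) :
    Subgroup.upperCentralSeries X 2 = Subgroup.center X := by
  apply le_antisymm
  · obtain ⟨hX, hp⟩ := h
    have key : ∀ z ∈ Subgroup.upperCentralSeries X 2, ∀ C ∈ unipotentSubgroups A B,
        conjBy C z = C := by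
      intro z hz C hC
      have hC' : conjBy C z ∈ unipotentSubgroups A B :=
        conjBy_mem_unipotentSubgroups hC (by rw [hX]; trivial)
      refine eq_of_mem_of_le_normalizer hp hC' hC ?_
      intro u hu
      rw [mem_conjBy] at hu
      -- u = z c z⁻¹ with c = z⁻¹ u z ∈ C, and z c z⁻¹ c⁻¹ is central
      set c := z⁻¹ * u * z with hc
      have hzc : z * c * z⁻¹ * c⁻¹ ∈ Subgroup.upperCentralSeries X 1 :=
        (Subgroup.mem_upperCentralSeries_succ_iff).mp hz c
      rw [Subgroup.upperCentralSeries_one] at hzc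
      have hu' : u = (z * c * z⁻¹ * c⁻¹) * c := by
        rw [hc]; group
      rw [mem_normalizer_iff_conjBy, hu', ← conjBy_conjBy, conjBy_of_mem hu, conjBy_central hzc]
    refine le_center_of_normalizes ⟨hX, hp⟩ inferInstance ?_ ?_
    · intro n hn
      exact key n hn A (left_mem_unipotentSubgroups A B)
    · intro n hn
      exact key n hn B (right_mem_unipotentSubgroups hp)
  · rw [← Subgroup.upperCentralSeries_one]
    exact Subgroup.upperCentralSeries_mono X (by norm_num)

end Group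

end Cfsg.Agent.Lib.Helper25.RankOne
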