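import Mathlib
import Cfsg.Prelude.Def_RootSubgroups
import Cfsg.Agent.Lib.Helper25.RankOne

set_option autoImplicit false

namespace Cfsg.Agent.Lib.Helper25.RootSet

open Cfsg Cfsg.Agent.Lib.Helper25.RankOne

variable {G : Type*} [Group G]

theorem conjBy_eq_of_commute {C : Subgroup G} {f : G} (hf : ∀ c ∈ C, f * c = c * f) :
    conjBy C f = C := by
  ext x
  rw [mem_conjBy]
  constructor
  · intro h
    have h1 := hf _ h
    have h2 : x = f * (f⁻¹ * x * f) * f⁻¹ := by group
    rw [h2, h1]; simpa [mul_assoc] using h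
  · intro h
    have h1 := hf _ h
    have h2 : f⁻¹ * x * f = x := by
      calc f⁻¹ * x * f = f⁻¹ * (x * f) := mul_assoc _ _ _
        _ = f⁻¹ * (f * x) := by rw [h1]
        _ = x := by simp
    rw [h2]; exact h

theorem commElem_mem {A B : Subgroup G} {a b : G} (ha : a ∈ A) (hb : b ∈ B) :
    a * b * a⁻¹ * b⁻¹ ∈ ⁅A, B⁆ :=
  Subgroup.commutator_mem_commutator ha hb

theorem comm_of_commutator_eq_bot {A B : Subgroup G} (h : ⁅A, B⁆ = ⊥) {a b : G} (ha : a ∈ A)
    (hb : b ∈ B) : a * b = b * a := by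
  have h1 : a * b * a⁻¹ * b⁻¹ ∈ ⁅A, B⁆ := commElem_mem ha hb
  rw [h, Subgroup.mem_bot] at h1
  have h2 : a * b * a⁻¹ * b⁻¹ * b * a = b * a := by rw [h1, one_mul]
  rw [← h2]; group

/-- if the commutators of `x` with `B` lie in a subgroup centralizing `B`, the conjugate of `B` by
`x` normalizes `B` -/
theorem conjBy_le_normalizer_of_comm {B F : Subgroup G} {x : G}
    (h1 : ∀ b ∈ B, x * b * x⁻¹ * b⁻¹ ∈ F) (h2 : ∀ f ∈ F, ∀ b ∈ B, f * b = b * f) :
    conjBy B x ≤ Subgroup.normalizer (B : Set G) := by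
  intro u hu
  rw [mem_conjBy] at hu
  set b := x⁻¹ * u * x with hb
  have hu' : u = (x * b * x⁻¹ * b⁻¹) * b := by rw [hb]; group
  rw [mem_normalizer_iff_conjBy, hu', ← conjBy_conjBy, conjBy_of_mem hu,
    conjBy_eq_of_commute (h2 _ (h1 b hu))]

theorem exists_partner {S : Set (Subgroup G)} {A : Subgroup G} (hAS : A ∈ S)
    (hA : ¬ IsIsolatedIn (FAdj S) S A) : ∃ B ∈ S, IsRankOnePair A B := by
  unfold IsIsolatedIn at hA
  push Not at hA
  obtain ⟨B, hB⟩ := hA hAS
  by_cases h1 : FAdj S A B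
  · exact ⟨B, h1.2.1, h1.2.2⟩
  · have h2 := hB h1
    exact ⟨B, h2.1, RankOnePair_symm h2.2.2⟩

theorem not_isolated_of_partner {S : Set (Subgroup G)} {A B : Subgroup G} (hAS : A ∈ S)
    (hBS : B ∈ S) (hp : IsRankOnePair A B) : ¬ IsIsolatedIn (FAdj S) S A := by
  intro h
  exact (h.2 B).1 ⟨hAS, hBS, hp⟩

/-- commuting nonidentity elements cannot lie in the two members of a rank one pair -/
theorem not_commute_of_pair {A B : Subgroup G} (h : IsRankOnePair A B) {a b : G} (ha : a ∈ A)
    (ha1 : a ≠ 1) (hb : b ∈ B) (hab : a * b = b * a) : b = 1 := by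
  obtain ⟨b', hb', -, he⟩ := h.cond_left a ha ha1
  have h1 : conjBy A (b⁻¹ * b'⁻¹) = conjBy A b'⁻¹ := by
    rw [← conjBy_conjBy, he, conjBy_conjBy]
    have e : b⁻¹ * a⁻¹ = a⁻¹ * b⁻¹ := by
      rw [← mul_inv_rev, ← mul_inv_rev, hab]
    rw [e, ← conjBy_conjBy, conjBy_of_mem (B.inv_mem hb)]
  have h2 := conjBy_left_injOn h (B.mul_mem (B.inv_mem hb) (B.inv_mem hb')) (B.inv_mem hb') h1
  have h3 : b⁻¹ = 1 := by
    have := congrArg (fun t => t * b') h2
    simpa [mul_assoc] using this
  exact inv_eq_one.mp h3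

section RootSet

variable {S : Set (Subgroup G)}

theorem unipotent_subset (hS : IsRootSubgroupSet S) {A B : Subgroup G} (hA : A ∈ S) :
    unipotentSubgroups A B ⊆ S := by
  rintro C ⟨x, -, rfl⟩
  exact hS.conj_mem A hA x

/-- A member with a rank one partner meets every other member trivially. -/
theorem inf_eq_bot_or_eq (hS : IsRootSubgroupSet S) {A A' : Subgroup G} (hAS : A ∈ S)
    (hA'S : A' ∈ S) (hp : IsRankOnePair A A') {B : Subgroup G} (hBS : B ∈ S) :
    A ⊓ B = ⊥ ∨ A = B := by
  by_cases hAB : A ⊓ B = ⊥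
  · left; exact hAB
  · obtain ⟨x, hx, hx1⟩ : ∃ x ∈ A ⊓ B, x ≠ 1 := by
      by_contra hcon
      push Not at hcon
      exact hAB ((eq_bot_iff).mpr fun x hx => hcon x hx)
    obtain ⟨hxA, hxB⟩ := hx
    rcases hS.pair B hBS A' hA'S with hc | hr | hcc
    · exfalso
      apply hx1
      apply eq_one_of_mem_of_conjBy_eq hp hxA
      exact conjBy_eq_of_commute (fun c hc' => comm_of_commutator_eq_bot hc hxB hc')
    · obtain ⟨a', ha', -, he'⟩ := hp.cond_left x hxA hx1
      obtain ⟨a'', ha'', -, he''⟩ := hr.cond_left x hxB hx1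
      have hAB' : A = conjBy B (a' * a''⁻¹) := by
        rw [← conjBy_conjBy, he'', ← he', conjBy_cancel_inv]
      by_cases ht : a' * a''⁻¹ = 1
      · right; rw [hAB', ht, conjBy_one]
      · left
        have hAmem : A ∈ unipotentSubgroups B A' := by
          rw [hAB']
          exact conjBy_mem_unipotentSubgroups (left_mem_unipotentSubgroups B A')
            (Subgroup.mem_sup_right (A'.mul_mem ha' (A'.inv_mem ha'')))
        have hne : A ≠ B := by
          intro he
          apply ht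
          apply eq_one_of_mem_of_conjBy_eq' hr (A'.mul_mem ha' (A'.inv_mem ha''))
          rw [← hAB', he]
        exact inf_eq_bot (isRankOnePair_of_mem_of_mem hr hAmem (left_mem_unipotentSubgroups B A') hne)
    · exfalso
      apply hx1
      apply eq_one_of_mem_of_conjBy_eq hp hxA
      have hle : conjBy A' x ≤ Subgroup.normalizer (A' : Set G) := by
        apply conjBy_le_normalizer_of_comm (F := ⁅B, A'⁆)
        · intro b hb
          exact commElem_mem hxB hb
        · intro f hf b hb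
          exact hcc.2.1 f hf b (Subgroup.mem_sup_right hb)
      exact eq_of_mem_of_le_normalizer hp
        (conjBy_mem_unipotentSubgroups (right_mem_unipotentSubgroups hp) (Subgroup.mem_sup_left hxA))
        (right_mem_unipotentSubgroups hp) hle

/-- A nonidentity element centralizing `A ⊔ B` times a nonidentity element of `A` is not a
root element. -/
theorem central_mul_not_root (hS : IsRootSubgroupSet S) {A B : Subgroup G} (hA : A ∈ S)
    (hB : B ∈ S) (hp : IsRankOnePair A B) {z : G}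
    (hz : ∀ x ∈ A ⊔ B, z * x = x * z) (hz1 : z ≠ 1) {a : G} (ha : a ∈ A) (ha1 : a ≠ 1) :
    z * a ∉ rootElements S := by
  rintro ⟨-, E, hES, hzaE⟩
  have hzA : ∀ x ∈ A, z * x = x * z := fun x hx => hz x (Subgroup.mem_sup_left hx)
  have hzB : ∀ x ∈ B, z * x = x * z := fun x hx => hz x (Subgroup.mem_sup_right hx)
  have hzB' : ∀ x ∈ B, z⁻¹ * x = x * z⁻¹ := by
    intro x hx
    have := hzB x hx
    rw [inv_mul_eq_iff_eq_mul, ← mul_assoc, this, mul_assoc, mul_inv_cancel, mul_one]
  have hzA' : ∀ x ∈ A, z⁻¹ * x = x * z⁻¹ := by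
    intro x hx
    have := hzA x hx
    rw [inv_mul_eq_iff_eq_mul, ← mul_assoc, this, mul_assoc, mul_inv_cancel, mul_one]
  rcases hS.pair E hES B hB with hc | hr | hcc
  · apply ha1
    apply eq_one_of_mem_of_conjBy_eq hp ha
    apply conjBy_eq_of_commute
    intro b hb
    have h1 := comm_of_commutator_eq_bot hc hzaE hb
    have h2 := hzB b hb
    -- z a b = b z a and z b = b z
    have h3 : z * (a * b) = z * (b * a) := by
      calc z * (a * b) = z * a * b := (mul_assoc _ _ _).symm
        _ = b * (z * a) := h1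
        _ = b * z * a := (mul_assoc _ _ _).symm
        _ = z * b * a := by rw [h2]
        _ = z * (b * a) := mul_assoc _ _ _
    exact mul_left_cancel h3
  · have hza1 : z * a ≠ 1 := by
      intro h1
      apply hz1
      -- z = a⁻¹ ∈ A and centralizes B
      have hzA'' : z ∈ A := by
        have : z = a⁻¹ := eq_inv_of_mul_eq_one_left h1
        rw [this]; exact A.inv_mem ha
      exact eq_one_of_mem_of_conjBy_eq hp hzA'' (conjBy_eq_of_commute hzB)
    obtain ⟨b₂, hb₂, -, he₂⟩ := hr.cond_left (z * a) hzaE hza1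
    obtain ⟨b, hb, -, he⟩ := hp.cond_left a ha ha1
    have h1 : conjBy B (z * a)⁻¹ = conjBy B a⁻¹ := by
      rw [mul_inv_rev, ← conjBy_conjBy, conjBy_eq_of_commute hzB']
    rw [h1, ← he] at he₂
    have hE : E = conjBy A (b₂ * b⁻¹) := by
      rw [← conjBy_conjBy, ← he₂, conjBy_cancel_inv]
    by_cases ht : b₂ * b⁻¹ = 1
    · rw [ht, conjBy_one] at hE
      rw [hE] at hzaE
      have hzA'' : z ∈ A := by
        have := A.mul_mem hzaE (A.inv_mem ha)
        simpa [mul_assoc] using this
      exact hz1 (eq_one_of_mem_of_conjBy_eq hp hzA'' (conjBy_eq_of_commute hzB))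
    · have htB : b₂ * b⁻¹ ∈ B := B.mul_mem hb₂ (B.inv_mem hb)
      obtain ⟨t, htdef⟩ : ∃ t : G, t = b₂ * b⁻¹ := ⟨_, rfl⟩
      rw [← htdef] at ht htB hE
      rw [hE, mem_conjBy] at hzaE
      have e1 : t⁻¹ * (z * a) * t = z * (t⁻¹ * a * t) := by
        have hc := hzB t⁻¹ (B.inv_mem htB)
        calc t⁻¹ * (z * a) * t = (t⁻¹ * z) * a * t := by group
          _ = (z * t⁻¹) * a * t := by rw [hc]
          _ = z * (t⁻¹ * a * t) := by group
      rw [e1] at hzaE
      obtain ⟨u, hu⟩ : ∃ u : G, u = t⁻¹ * a * t := ⟨_, rfl⟩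
      rw [← hu] at hzaE
      have huA₂ : u ∈ conjBy A t⁻¹ := by
        rw [mem_conjBy, hu]; simpa [mul_assoc] using ha
      have hA₂ : conjBy A t⁻¹ ∈ unipotentSubgroups A B :=
        conjBy_mem_unipotentSubgroups (left_mem_unipotentSubgroups A B)
          (Subgroup.mem_sup_right (B.inv_mem htB))
      have hA₂ne : conjBy A t⁻¹ ≠ A := by
        intro h2
        apply ht
        have := eq_one_of_mem_of_conjBy_eq' hp (B.inv_mem htB) h2
        exact inv_eq_one.mp this
      have hp₂ := isRankOnePair_of_mem_of_mem hp hA₂ (left_mem_unipotentSubgroups A B) hA₂ne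
      have hnorm : conjBy A u = A := by
        have e2 : u = z⁻¹ * (z * u) := by simp
        rw [e2, ← conjBy_conjBy, conjBy_of_mem hzaE, conjBy_eq_of_commute hzA']
      have hu1 := eq_one_of_mem_of_conjBy_eq hp₂ huA₂ hnorm
      apply ha1
      have e3 : a = t * u * t⁻¹ := by rw [hu]; group
      rw [e3, hu1]; simp
  · apply ha1
    apply eq_one_of_mem_of_conjBy_eq hp ha
    have hle : conjBy B a ≤ Subgroup.normalizer (B : Set G) := by
      apply conjBy_le_normalizer_of_comm (F := ⁅E, B⁆)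
      · intro b hb
        have h1 : (z * a) * b * (z * a)⁻¹ * b⁻¹ ∈ ⁅E, B⁆ := commElem_mem hzaE hb
        have e : (z * a) * b * (z * a)⁻¹ * b⁻¹ = a * b * a⁻¹ * b⁻¹ := by
          have hzb := hzB b hb
          have hza := hzA a ha
          have hzab : z * (a * b * a⁻¹) = (a * b * a⁻¹) * z :=
            hz _ (Subgroup.mul_mem _ (Subgroup.mul_mem _ (Subgroup.mem_sup_left ha)
              (Subgroup.mem_sup_right hb)) (Subgroup.mem_sup_left (A.inv_mem ha)))
          calc (z * a) * b * (z * a)⁻¹ * b⁻¹ = z * (a * b * a⁻¹) * z⁻¹ * b⁻¹ := by group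
            _ = (a * b * a⁻¹) * z * z⁻¹ * b⁻¹ := by rw [hzab]
            _ = a * b * a⁻¹ * b⁻¹ := by group
        rwa [e] at h1
      · intro f hf b hb
        exact hcc.2.1 f hf b (Subgroup.mem_sup_right hb)
    exact eq_of_mem_of_le_normalizer hp
      (conjBy_mem_unipotentSubgroups (right_mem_unipotentSubgroups hp) (Subgroup.mem_sup_left ha))
      (right_mem_unipotentSubgroups hp) hle

end RootSet


/-- In a rank one pair with `A` commutative, an element of `A ⊔ B` centralizing `A` is a product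
of an element of `A` and an element centralizing `A ⊔ B`. -/
theorem centralizer_decomp {A B : Subgroup G} (hp : IsRankOnePair A B) (hAc : IsMulCommutative A)
    {y : G} (hy : y ∈ A ⊔ B) (hyA : ∀ a ∈ A, y * a = a * y) :
    ∃ a₀ ∈ A, ∃ z : G, (∀ x ∈ A ⊔ B, z * x = x * z) ∧ y = a₀ * z := by
  have hBy : conjBy B y ∈ unipotentSubgroups A B :=
    conjBy_mem_unipotentSubgroups (right_mem_unipotentSubgroups hp) hy
  have hne : conjBy B y ≠ A := by
    intro he
    have h1 : conjBy A y = A := conjBy_eq_of_commute hyA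
    rw [← h1] at he
    exact hp.ne (conjBy_injective y he).symm
  obtain ⟨a₀, ha₀, he⟩ := exists_of_mem_unipotent_ne hp hBy hne
  obtain ⟨z, hzdef⟩ : ∃ z : G, z = a₀⁻¹ * y := ⟨_, rfl⟩
  have hzB : conjBy B z = B := by
    rw [hzdef, ← conjBy_conjBy, he, conjBy_inv_cancel]
  have hzA : ∀ a ∈ A, z * a = a * z := by
    intro a ha
    have h1 := hyA a ha
    have h2 := comm_of_isMulCommutative hAc (A.inv_mem ha₀) ha
    calc z * a = a₀⁻¹ * (y * a) := by rw [hzdef, mul_assoc]
      _ = a₀⁻¹ * (a * y) := by rw [h1]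
      _ = (a₀⁻¹ * a) * y := (mul_assoc _ _ _).symm
      _ = (a * a₀⁻¹) * y := by rw [h2]
      _ = a * z := by rw [hzdef, mul_assoc]
  have hzA' : conjBy A z = A := conjBy_eq_of_commute hzA
  have hzB' : ∀ b ∈ B, z * b = b * z := by
    intro b hb
    by_cases hb1 : b = 1
    · rw [hb1]; simp
    · obtain ⟨a, ha, ha1, hab⟩ := hp.cond_right b hb hb1
      -- hab : conjBy B a⁻¹ = conjBy A b⁻¹
      have hzbz : z * b * z⁻¹ ∈ B := by
        have := conj_mem_conjBy (g := z) hb
        rwa [hzB] at this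
      have h1 : conjBy A (z * b * z⁻¹)⁻¹ = conjBy A b⁻¹ := by
        have e1 : (z * b * z⁻¹)⁻¹ = z * b⁻¹ * z⁻¹ := by group
        have e2 : conjBy A (z * b⁻¹ * z⁻¹) = conjBy (conjBy (conjBy A z⁻¹) b⁻¹) z := by
          rw [conjBy_conjBy, conjBy_conjBy, mul_assoc]
        have hzinvA : conjBy A z⁻¹ = A := by
          rw [← conjBy_eq_iff.mp hzA']
        rw [e1, e2, hzinvA, ← hab, conjBy_conjBy]
        have hc : z * a⁻¹ = a⁻¹ * z := hzA a⁻¹ (A.inv_mem ha)
        rw [hc, ← conjBy_conjBy, hzB]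
      have h2 := conjBy_left_injOn hp (B.inv_mem hzbz) (B.inv_mem hb) h1
      have h3 : z * b * z⁻¹ = b := inv_injective h2
      calc z * b = z * b * z⁻¹ * z := by group
        _ = b * z := by rw [h3]
  refine ⟨a₀, ha₀, z, ?_, by rw [hzdef]; group⟩
  have hA' : A ≤ Subgroup.centralizer ({z} : Set G) := by
    intro a ha
    rw [Subgroup.mem_centralizer_iff]
    intro w hw
    rw [Set.mem_singleton_iff.mp hw]
    exact hzA a ha
  have hB' : B ≤ Subgroup.centralizer ({z} : Set G) := by
    intro b hb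
    rw [Subgroup.mem_centralizer_iff]
    intro w hw
    rw [Set.mem_singleton_iff.mp hw]
    exact hzB' b hb
  intro x hx
  have := (sup_le hA' hB') hx
  rw [Subgroup.mem_centralizer_iff] at this
  exact this z rfl

section RootSet2

variable {S : Set (Subgroup G)}

/-- a member of `S` inside a rank one group `C ⊔ D` (with `C, D ∈ S`) commuting with `C` is `C`
or centralizes the rank one group -/
theorem eq_or_central_of_commute (hS : IsRootSubgroupSet S) {C D R : Subgroup G} (hC : C ∈ S)
    (hD : D ∈ S) (hp : IsRankOnePair C D) (hR : R ∈ S) (hRle : R ≤ C ⊔ D)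
    (hcomm : ⁅R, C⁆ = ⊥) : R = C ∨ ∀ r ∈ R, ∀ x ∈ C ⊔ D, r * x = x * r := by
  by_cases hall : ∀ r ∈ R, ∀ x ∈ C ⊔ D, r * x = x * r
  · right; exact hall
  · left
    push Not at hall
    obtain ⟨r, hr, x, hx, hrx⟩ := hall
    have hr1 : r ≠ 1 := by
      rintro rfl
      apply hrx; simp
    obtain ⟨c₀, hc₀, z, hz, hrz⟩ := centralizer_decomp hp (hS.commutative C hC) (hRle hr)
      (fun c hc => comm_of_commutator_eq_bot hcomm hr hc)
    have hc₀1 : c₀ ≠ 1 := by
      rintro rfl
      rw [one_mul] at hrz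
      rw [hrz] at hrx
      exact hrx (hz x hx)
    have hzc : z * c₀ = c₀ * z := hz c₀ (Subgroup.mem_sup_left hc₀)
    by_cases hz1 : z = 1
    · rw [hz1, mul_one] at hrz
      have hinf : C ⊓ R ≠ ⊥ := by
        intro hb
        have : r ∈ C ⊓ R := ⟨by rw [hrz]; exact hc₀, hr⟩
        rw [hb, Subgroup.mem_bot] at this
        exact hr1 this
      rcases inf_eq_bot_or_eq hS hC hD hp hR with h1 | h1
      · exact absurd h1 hinf
      · exact h1.symm
    · exfalso
      have := central_mul_not_root hS hC hD hp hz hz1 hc₀ hc₀1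
      apply this
      refine ⟨?_, R, hR, ?_⟩
      · rw [hzc, ← hrz]; exact hr1
      · rw [hzc, ← hrz]; exact hr

/-- a member of `S` contained in a rank one group `C ⊔ D` (with `C, D ∈ S`) is a conjugate of `C`
in it, or centralizes it -/
theorem mem_unipotent_or_central (hS : IsRootSubgroupSet S) {C D R : Subgroup G} (hC : C ∈ S)
    (hD : D ∈ S) (hp : IsRankOnePair C D) (hR : R ∈ S) (hRle : R ≤ C ⊔ D) :
    R ∈ unipotentSubgroups C D ∨ ∀ r ∈ R, ∀ x ∈ C ⊔ D, r * x = x * r := by
  rcases hS.pair R hR C hC with hc | hr | hcc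
  · rcases eq_or_central_of_commute hS hC hD hp hR hRle hc with h1 | h1
    · left; rw [h1]; exact left_mem_unipotentSubgroups C D
    · right; exact h1
  · left
    obtain ⟨r, hr', hr1⟩ := exists_ne_one_left hr
    obtain ⟨c, hc, -, he⟩ := hr.cond_left r hr' hr1
    have h1 : R = conjBy (conjBy C r⁻¹) c := by rw [← he, conjBy_cancel_inv]
    rw [h1]
    exact conjBy_mem_unipotentSubgroups (conjBy_mem_unipotentSubgroups
      (left_mem_unipotentSubgroups C D) (Subgroup.inv_mem _ (hRle hr'))) (Subgroup.mem_sup_left hc)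
  · exfalso
    obtain ⟨hFS, hFc, -, -⟩ := hcc
    have hFle : ⁅R, C⁆ ≤ C ⊔ D := by
      rw [Subgroup.commutator_le]
      intro r hr c hc
      exact Subgroup.mul_mem _ (Subgroup.mul_mem _ (Subgroup.mul_mem _ (hRle hr)
        (Subgroup.mem_sup_left hc)) (Subgroup.inv_mem _ (hRle hr)))
        (Subgroup.inv_mem _ (Subgroup.mem_sup_left hc))
    have hFC : ⁅⁅R, C⁆, C⁆ = ⊥ := by
      rw [Subgroup.commutator_eq_bot_iff_le_centralizer]
      intro f hf
      rw [Subgroup.mem_centralizer_iff]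
      intro c hc
      exact (hFc f hf c (Subgroup.mem_sup_right hc)).symm
    have hFne : ⁅R, C⁆ ≠ ⊥ := hS.ne_bot _ hFS
    have hRC : ⁅R, C⁆ ≠ C := by
      intro he
      apply hFne
      rw [Subgroup.commutator_eq_bot_iff_le_centralizer]
      intro r hr
      rw [Subgroup.mem_centralizer_iff]
      intro c hc
      have hc' : c ∈ ⁅R, C⁆ := by rw [he]; exact hc
      exact hFc c hc' r (Subgroup.mem_sup_left hr)
    rcases eq_or_central_of_commute hS hC hD hp hFS hFle hFC with h1 | h1
    · exact hRC h1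
    · -- every r ∈ R normalizes C, hence ⁅R, C⁆ ≤ C
      have hnorm : ∀ r ∈ R, conjBy C r = C := by
        intro r hr
        have hle : conjBy C r ≤ Subgroup.normalizer (C : Set G) := by
          apply conjBy_le_normalizer_of_comm (F := ⁅R, C⁆)
          · intro c hc; exact commElem_mem hr hc
          · intro f hf c hc; exact h1 f hf c (Subgroup.mem_sup_left hc)
        exact eq_of_mem_of_le_normalizer hp (conjBy_mem_unipotentSubgroups
          (left_mem_unipotentSubgroups C D) (hRle hr)) (left_mem_unipotentSubgroups C D) hle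
      have hle : ⁅R, C⁆ ≤ C := by
        rw [Subgroup.commutator_le]
        intro r hr c hc
        have h2 : r * c * r⁻¹ ∈ conjBy C r := conj_mem_conjBy hc
        rw [hnorm r hr] at h2
        exact C.mul_mem h2 (C.inv_mem hc)
      rcases inf_eq_bot_or_eq hS hC hD hp hFS with h2 | h2
      · apply hFne
        rw [← h2]; exact (inf_eq_right.mpr hle).symm
      · exact hRC h2.symm

end RootSet2

end Cfsg.Agent.Lib.Helper25.RootSet
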