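import Mathlib
import Cfsg.Prelude.Def_RootSubgroups
import Cfsg.Agent.Lib.Helper25.RootSet

set_option autoImplicit false

namespace Cfsg.Agent.Lib.Helper25.CommCase

open Cfsg Cfsg.Agent.Lib.Helper25.RankOne Cfsg.Agent.Lib.Helper25.RootSet

variable {G : Type*} [Group G]

theorem commutator_le_sup (A B : Subgroup G) : ⁅A, B⁆ ≤ A ⊔ B := by
  rw [Subgroup.commutator_le]
  intro a ha b hb
  have h1 : a ∈ A ⊔ B := Subgroup.mem_sup_left ha
  have h2 : b ∈ A ⊔ B := Subgroup.mem_sup_right hb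
  exact (A ⊔ B).mul_mem ((A ⊔ B).mul_mem ((A ⊔ B).mul_mem h1 h2) ((A ⊔ B).inv_mem h1))
    ((A ⊔ B).inv_mem h2)

theorem mem_sup_of_commute {H K : Subgroup G} (h : ∀ x ∈ H, ∀ y ∈ K, x * y = y * x) {g : G} :
    g ∈ H ⊔ K ↔ ∃ x ∈ H, ∃ y ∈ K, g = x * y := by
  constructor
  · intro hg
    rw [Subgroup.sup_eq_closure] at hg
    induction hg using Subgroup.closure_induction'' with
    | mem x hx =>
      rcases hx with hx | hx
      · exact ⟨x, hx, 1, K.one_mem, by simp⟩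
      · exact ⟨1, H.one_mem, x, hx, by simp⟩
    | inv_mem x hx =>
      rcases hx with hx | hx
      · exact ⟨x⁻¹, H.inv_mem hx, 1, K.one_mem, by simp⟩
      · exact ⟨1, H.one_mem, x⁻¹, K.inv_mem hx, by simp⟩
    | one => exact ⟨1, H.one_mem, 1, K.one_mem, by simp⟩
    | mul x y _ _ ihx ihy =>
      obtain ⟨x₁, hx₁, y₁, hy₁, rfl⟩ := ihx
      obtain ⟨x₂, hx₂, y₂, hy₂, rfl⟩ := ihy
      refine ⟨x₁ * x₂, H.mul_mem hx₁ hx₂, y₁ * y₂, K.mul_mem hy₁ hy₂, ?_⟩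
      have h1 := h x₂ hx₂ y₁ hy₁
      calc x₁ * y₁ * (x₂ * y₂) = x₁ * (y₁ * x₂) * y₂ := by group
        _ = x₁ * (x₂ * y₁) * y₂ := by rw [h1]
        _ = x₁ * x₂ * (y₁ * y₂) := by group
  · rintro ⟨x, hx, y, hy, rfl⟩
    exact Subgroup.mul_mem _ (Subgroup.mem_sup_left hx) (Subgroup.mem_sup_right hy)

/-- an element commuting with two subgroups commutes with their join -/
theorem comm_sup_elem {z : G} {K L : Subgroup G} (h1 : ∀ y ∈ K, z * y = y * z)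
    (h2 : ∀ y ∈ L, z * y = y * z) : ∀ y ∈ K ⊔ L, z * y = y * z := by
  intro y hy
  have hle : K ⊔ L ≤ Subgroup.centralizer ({z} : Set G) := by
    apply sup_le
    · intro k hk
      rw [Subgroup.mem_centralizer_iff]
      intro w hw
      rw [Set.mem_singleton_iff] at hw
      rw [hw]; exact h1 k hk
    · intro l hl
      rw [Subgroup.mem_centralizer_iff]
      intro w hw
      rw [Set.mem_singleton_iff] at hw
      rw [hw]; exact h2 l hl
  have := hle hy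
  rw [Subgroup.mem_centralizer_iff] at this
  exact this z rfl

/-- elementwise commutation passes to joins on the right -/
theorem comm_sup_right {H K L : Subgroup G} (h1 : ∀ x ∈ H, ∀ y ∈ K, x * y = y * x)
    (h2 : ∀ x ∈ H, ∀ y ∈ L, x * y = y * x) : ∀ x ∈ H, ∀ y ∈ K ⊔ L, x * y = y * x :=
  fun x hx => comm_sup_elem (h1 x hx) (h2 x hx)

theorem commutator_eq_bot_of_comm {H K : Subgroup G} (h : ∀ x ∈ H, ∀ y ∈ K, x * y = y * x) :
    ⁅H, K⁆ = ⊥ := by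
  rw [Subgroup.commutator_eq_bot_iff_le_centralizer]
  intro x hx
  rw [Subgroup.mem_centralizer_iff]
  intro y hy
  exact (h x hx y hy).symm

theorem conjBy_commutator_le_left {A B : Subgroup G} {a : G} (ha : a ∈ A) :
    conjBy ⁅A, B⁆ a ≤ ⁅A, B⁆ := by
  unfold conjBy
  rw [Subgroup.map_le_iff_le_comap, Subgroup.commutator_le]
  intro a' ha' b hb
  rw [Subgroup.mem_comap]
  show a * (a' * b * a'⁻¹ * b⁻¹) * a⁻¹ ∈ ⁅A, B⁆
  have h1 : a * (a' * b * a'⁻¹ * b⁻¹) * a⁻¹ =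
      ((a * a') * b * (a * a')⁻¹ * b⁻¹) * (a * b * a⁻¹ * b⁻¹)⁻¹ := by
    group
  rw [h1]
  exact Subgroup.mul_mem _ (commElem_mem (A.mul_mem ha ha') hb)
    (Subgroup.inv_mem _ (commElem_mem ha hb))

theorem conjBy_commutator_le_right {A B : Subgroup G} {b : G} (hb : b ∈ B) :
    conjBy ⁅A, B⁆ b ≤ ⁅A, B⁆ := by
  unfold conjBy
  rw [Subgroup.map_le_iff_le_comap, Subgroup.commutator_le]
  intro a' ha' b' hb'
  rw [Subgroup.mem_comap]
  show b * (a' * b' * a'⁻¹ * b'⁻¹) * b⁻¹ ∈ ⁅A, B⁆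
  have h1 : b * (a' * b' * a'⁻¹ * b'⁻¹) * b⁻¹ =
      (a' * b * a'⁻¹ * b⁻¹)⁻¹ * (a' * (b * b') * a'⁻¹ * (b * b')⁻¹) := by
    group
  rw [h1]
  exact Subgroup.mul_mem _ (Subgroup.inv_mem _ (commElem_mem ha' hb))
    (commElem_mem ha' (B.mul_mem hb hb'))

theorem conjBy_eq_of_le_of_inv_le {C : Subgroup G} {g : G} (h1 : conjBy C g ≤ C)
    (h2 : conjBy C g⁻¹ ≤ C) : conjBy C g = C := by
  apply le_antisymm h1
  have := conjBy_le_conjBy g h2
  rwa [conjBy_cancel_inv] at this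

theorem conjBy_commutator_left {A B : Subgroup G} {a : G} (ha : a ∈ A) :
    conjBy ⁅A, B⁆ a = ⁅A, B⁆ :=
  conjBy_eq_of_le_of_inv_le (conjBy_commutator_le_left ha) (conjBy_commutator_le_left (A.inv_mem ha))

theorem conjBy_commutator_right {A B : Subgroup G} {b : G} (hb : b ∈ B) :
    conjBy ⁅A, B⁆ b = ⁅A, B⁆ :=
  conjBy_eq_of_le_of_inv_le (conjBy_commutator_le_right hb)
    (conjBy_commutator_le_right (B.inv_mem hb))

theorem closure_comm_swap_left (A : Subgroup G) (b : G) :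
    Subgroup.closure ((fun a : G => b * a * b⁻¹ * a⁻¹) '' (A : Set G)) =
      Subgroup.closure ((fun a : G => a * b * a⁻¹ * b⁻¹) '' (A : Set G)) := by
  apply le_antisymm
  · rw [Subgroup.closure_le]
    rintro _ ⟨a, ha, rfl⟩
    have h1 : b * a * b⁻¹ * a⁻¹ = (a * b * a⁻¹ * b⁻¹)⁻¹ := by group
    simp only [h1]
    exact Subgroup.inv_mem _ (Subgroup.subset_closure ⟨a, ha, rfl⟩)
  · rw [Subgroup.closure_le]
    rintro _ ⟨a, ha, rfl⟩
    have h1 : a * b * a⁻¹ * b⁻¹ = (b * a * b⁻¹ * a⁻¹)⁻¹ := by group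
    simp only [h1]
    exact Subgroup.inv_mem _ (Subgroup.subset_closure ⟨a, ha, rfl⟩)

theorem closure_comm_swap_right (B : Subgroup G) (a : G) :
    Subgroup.closure ((fun b : G => b * a * b⁻¹ * a⁻¹) '' (B : Set G)) =
      Subgroup.closure ((fun b : G => a * b * a⁻¹ * b⁻¹) '' (B : Set G)) := by
  apply le_antisymm
  · rw [Subgroup.closure_le]
    rintro _ ⟨b, hb, rfl⟩
    have h1 : b * a * b⁻¹ * a⁻¹ = (a * b * a⁻¹ * b⁻¹)⁻¹ := by group
    simp only [h1]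
    exact Subgroup.inv_mem _ (Subgroup.subset_closure ⟨b, hb, rfl⟩)
  · rw [Subgroup.closure_le]
    rintro _ ⟨b, hb, rfl⟩
    have h1 : a * b * a⁻¹ * b⁻¹ = (b * a * b⁻¹ * a⁻¹)⁻¹ := by group
    simp only [h1]
    exact Subgroup.inv_mem _ (Subgroup.subset_closure ⟨b, hb, rfl⟩)

section Central

variable {A B : Subgroup G} (hc : ∀ c ∈ ⁅A, B⁆, ∀ x ∈ A ⊔ B, c * x = x * c)

include hc

theorem kap_mul_left {a a' b : G} (ha : a ∈ A) (ha' : a' ∈ A) (hb : b ∈ B) :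
    (a * a') * b * (a * a')⁻¹ * b⁻¹ = (a * b * a⁻¹ * b⁻¹) * (a' * b * a'⁻¹ * b⁻¹) := by
  have h1 : (a' * b * a'⁻¹ * b⁻¹) * a = a * (a' * b * a'⁻¹ * b⁻¹) :=
    hc _ (commElem_mem ha' hb) a (Subgroup.mem_sup_left ha)
  have h2 : (a' * b * a'⁻¹ * b⁻¹) * (a * b * a⁻¹ * b⁻¹) = (a * b * a⁻¹ * b⁻¹) * (a' * b * a'⁻¹ * b⁻¹) :=
    hc _ (commElem_mem ha' hb) _ (commutator_le_sup A B (commElem_mem ha hb))
  calc (a * a') * b * (a * a')⁻¹ * b⁻¹ = (a * (a' * b * a'⁻¹ * b⁻¹)) * (b * a⁻¹ * b⁻¹) := by group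
    _ = ((a' * b * a'⁻¹ * b⁻¹) * a) * (b * a⁻¹ * b⁻¹) := by rw [h1]
    _ = (a' * b * a'⁻¹ * b⁻¹) * (a * b * a⁻¹ * b⁻¹) := by group
    _ = _ := h2

theorem kap_mul_right {a b b' : G} (ha : a ∈ A) (hb : b ∈ B) (hb' : b' ∈ B) :
    a * (b * b') * a⁻¹ * (b * b')⁻¹ = (a * b * a⁻¹ * b⁻¹) * (a * b' * a⁻¹ * b'⁻¹) := by
  have h1 : (a * b' * a⁻¹ * b'⁻¹) * b = b * (a * b' * a⁻¹ * b'⁻¹) :=
    hc _ (commElem_mem ha hb') b (Subgroup.mem_sup_right hb)
  calc a * (b * b') * a⁻¹ * (b * b')⁻¹ = (a * b * a⁻¹ * b⁻¹) * (b * (a * b' * a⁻¹ * b'⁻¹)) * b⁻¹ := by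
        group
    _ = (a * b * a⁻¹ * b⁻¹) * ((a * b' * a⁻¹ * b'⁻¹) * b) * b⁻¹ := by rw [h1]
    _ = _ := by group

theorem kap_inv_left {a b : G} (ha : a ∈ A) (hb : b ∈ B) :
    a⁻¹ * b * a⁻¹⁻¹ * b⁻¹ = (a * b * a⁻¹ * b⁻¹)⁻¹ := by
  have h := kap_mul_left hc ha (A.inv_mem ha) hb
  have h1 : (a * a⁻¹) * b * (a * a⁻¹)⁻¹ * b⁻¹ = 1 := by group
  rw [h1] at h
  exact eq_inv_of_mul_eq_one_right h.symm

theorem kap_inv_right {a b : G} (ha : a ∈ A) (hb : b ∈ B) :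
    a * b⁻¹ * a⁻¹ * b⁻¹⁻¹ = (a * b * a⁻¹ * b⁻¹)⁻¹ := by
  have h := kap_mul_right hc ha hb (B.inv_mem hb)
  have h1 : a * (b * b⁻¹) * a⁻¹ * (b * b⁻¹)⁻¹ = 1 := by group
  rw [h1] at h
  exact eq_inv_of_mul_eq_one_right h.symm

theorem kap_inv_inv {a b : G} (ha : a ∈ A) (hb : b ∈ B) :
    a⁻¹ * b⁻¹ * a * b = a * b * a⁻¹ * b⁻¹ := by
  have h1 := kap_inv_left hc ha (B.inv_mem hb)
  have h2 := kap_inv_right hc ha hb
  rw [h2, inv_inv, inv_inv, inv_inv] at h1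
  exact h1

end Central

section RootSet

variable {S : Set (Subgroup G)}

theorem commCase_symm {A B : Subgroup G} (h : RootCommutatorCase S A B) :
    RootCommutatorCase S B A := by
  obtain ⟨h1, h2, h3, h4⟩ := h
  have e : ⁅B, A⁆ = ⁅A, B⁆ := Subgroup.commutator_comm B A
  refine ⟨by rw [e]; exact h1, ?_, ?_, ?_⟩
  · intro c hc x hx
    rw [e] at hc
    rw [sup_comm] at hx
    exact h2 c hc x hx
  · intro b hb hb1
    rw [e, closure_comm_swap_left]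
    exact h4 b hb hb1
  · intro a ha ha1
    rw [e, closure_comm_swap_right]
    exact h3 a ha ha1

theorem exists_right_of_commCase {A B : Subgroup G} (h : RootCommutatorCase S A B) {a : G}
    (ha : a ∈ A) (ha1 : a ≠ 1) {c : G} (hc : c ∈ ⁅A, B⁆) :
    ∃ b ∈ B, a * b * a⁻¹ * b⁻¹ = c := by
  rw [← h.2.2.1 a ha ha1] at hc
  induction hc using Subgroup.closure_induction with
  | mem x hx =>
    obtain ⟨b, hb, rfl⟩ := hx
    exact ⟨b, hb, rfl⟩
  | one => exact ⟨1, B.one_mem, by group⟩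
  | mul x y _ _ ihx ihy =>
    obtain ⟨b₁, hb₁, rfl⟩ := ihx
    obtain ⟨b₂, hb₂, rfl⟩ := ihy
    exact ⟨b₁ * b₂, B.mul_mem hb₁ hb₂, kap_mul_right h.2.1 ha hb₁ hb₂⟩
  | inv x _ ih =>
    obtain ⟨b, hb, rfl⟩ := ih
    exact ⟨b⁻¹, B.inv_mem hb, kap_inv_right h.2.1 ha hb⟩

theorem exists_left_of_commCase {A B : Subgroup G} (h : RootCommutatorCase S A B) {b : G}
    (hb : b ∈ B) (hb1 : b ≠ 1) {c : G} (hc : c ∈ ⁅A, B⁆) :
    ∃ a ∈ A, a * b * a⁻¹ * b⁻¹ = c := by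
  have hc' : c⁻¹ ∈ ⁅B, A⁆ := by
    rw [Subgroup.commutator_comm B A]
    exact Subgroup.inv_mem _ hc
  obtain ⟨a, ha, hac⟩ := exists_right_of_commCase (commCase_symm h) hb hb1 hc'
  refine ⟨a, ha, ?_⟩
  have h1 : a * b * a⁻¹ * b⁻¹ = (b * a * b⁻¹ * a⁻¹)⁻¹ := by group
  rw [h1, hac, inv_inv]

theorem commCase_of_mem (hS : IsRootSubgroupSet S) {A B : Subgroup G} (hA : A ∈ S) (hB : B ∈ S)
    (hC : ⁅A, B⁆ ∈ S) : RootCommutatorCase S A B := by
  rcases hS.pair A hA B hB with h | h | h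
  · exact absurd h (hS.ne_bot _ hC)
  · exfalso
    rcases mem_unipotent_or_central hS hA hB h hC (commutator_le_sup A B) with h1 | h1
    · have hAC : A = ⁅A, B⁆ :=
        eq_of_mem_of_le_normalizer h (left_mem_unipotentSubgroups A B) h1
          (fun a ha => mem_normalizer_iff_conjBy.mpr (conjBy_commutator_left ha))
      have hBC : B = ⁅A, B⁆ :=
        eq_of_mem_of_le_normalizer h (right_mem_unipotentSubgroups h) h1
          (fun b hb => mem_normalizer_iff_conjBy.mpr (conjBy_commutator_right hb))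
      exact h.ne (hAC.trans hBC.symm)
    · obtain ⟨a, ha, ha1⟩ := exists_ne_one_left h
      apply ha1
      apply eq_one_of_mem_of_conjBy_eq h ha
      have hle : conjBy B a ≤ Subgroup.normalizer (B : Set G) :=
        conjBy_le_normalizer_of_comm (F := ⁅A, B⁆) (fun b hb => commElem_mem ha hb)
          (fun f hf b hb => h1 f hf b (Subgroup.mem_sup_right hb))
      exact eq_of_mem_of_le_normalizer h
        (conjBy_mem_unipotentSubgroups (right_mem_unipotentSubgroups h) (Subgroup.mem_sup_left ha))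
        (right_mem_unipotentSubgroups h) hle
  · exact h

theorem commCase_left_ne (hS : IsRootSubgroupSet S) {A B : Subgroup G}
    (h : RootCommutatorCase S A B) : A ≠ ⁅A, B⁆ := by
  intro he
  apply hS.ne_bot _ h.1
  rw [Subgroup.commutator_eq_bot_iff_le_centralizer]
  intro a ha
  rw [Subgroup.mem_centralizer_iff]
  intro b hb
  have ha' : a ∈ ⁅A, B⁆ := he ▸ ha
  exact (h.2.1 a ha' b (Subgroup.mem_sup_right hb)).symm

theorem commCase_right_ne (hS : IsRootSubgroupSet S) {A B : Subgroup G}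
    (h : RootCommutatorCase S A B) : B ≠ ⁅A, B⁆ := by
  have := commCase_left_ne hS (commCase_symm h)
  rwa [Subgroup.commutator_comm B A] at this

/-- In the commutator case, if `A` has a rank one partner then no nonidentity element of `B`
normalizes `A`. -/
theorem commCase_conjBy_ne (hS : IsRootSubgroupSet S) {A A' B : Subgroup G} (hA : A ∈ S)
    (hA' : A' ∈ S) (hp : IsRankOnePair A A') (h : RootCommutatorCase S A B) {b : G}
    (hb : b ∈ B) (hb1 : b ≠ 1) : A ≠ conjBy A b := by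
  intro h1
  have hCA : ⁅A, B⁆ ≤ A := by
    rw [← h.2.2.2 b hb hb1, Subgroup.closure_le]
    rintro _ ⟨x, hx, rfl⟩
    have h2 : b * x⁻¹ * b⁻¹ ∈ A := by
      rw [h1]; exact conj_mem_conjBy (A.inv_mem hx)
    have h3 : x * b * x⁻¹ * b⁻¹ = x * (b * x⁻¹ * b⁻¹) := by group
    show x * b * x⁻¹ * b⁻¹ ∈ A
    rw [h3]; exact A.mul_mem hx h2
  rcases inf_eq_bot_or_eq hS hA hA' hp h.1 with h2 | h2
  · apply hS.ne_bot _ h.1
    rw [← h2]
    exact (inf_eq_right.mpr hCA).symm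
  · exact commCase_left_ne hS h h2

/-- In the commutator case, if `A` has a rank one partner then nonidentity elements of `A` and `B`
never commute. -/
theorem commCase_not_commute (hS : IsRootSubgroupSet S) {A A' B : Subgroup G} (hA : A ∈ S)
    (hA' : A' ∈ S) (hp : IsRankOnePair A A') (h : RootCommutatorCase S A B) {a b : G}
    (ha : a ∈ A) (ha1 : a ≠ 1) (hb : b ∈ B) (hab : a * b = b * a) : b = 1 := by
  by_contra hb1
  have hAb : conjBy A b ∈ S := hS.conj_mem A hA b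
  have hmem : a ∈ A ⊓ conjBy A b := by
    have h0 : a ∈ conjBy A b := by
      rw [mem_conjBy]
      have h1 : b⁻¹ * a * b = a := by
        rw [mul_assoc, hab, ← mul_assoc, inv_mul_cancel, one_mul]
      rw [h1]; exact ha
    exact ⟨ha, h0⟩
  rcases inf_eq_bot_or_eq hS hA hA' hp hAb with h1 | h1
  · rw [h1, Subgroup.mem_bot] at hmem
    exact ha1 hmem
  · exact commCase_conjBy_ne hS hA hA' hp h hb hb1 h1

theorem commCase_inf_eq_bot (hS : IsRootSubgroupSet S) {A A' B : Subgroup G} (hA : A ∈ S)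
    (hA' : A' ∈ S) (hp : IsRankOnePair A A') (h : RootCommutatorCase S A B) :
    A ⊓ ⁅A, B⁆ = ⊥ := by
  rcases inf_eq_bot_or_eq hS hA hA' hp h.1 with h2 | h2
  · exact h2
  · exact absurd h2 (commCase_left_ne hS h)

/-- in the commutator case, `B` commutes elementwise with its conjugates under `A` -/
theorem commCase_conjBy_comm {A B : Subgroup G} (hB : IsMulCommutative B)
    (h : RootCommutatorCase S A B) {a : G} (ha : a ∈ A) :
    ∀ x ∈ B, ∀ y ∈ conjBy B a, x * y = y * x := by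
  intro x hx y hy
  rw [mem_conjBy] at hy
  obtain ⟨b, hb⟩ : ∃ b, b = a⁻¹ * y * a := ⟨_, rfl⟩
  rw [← hb] at hy
  have hy' : y = (a * b * a⁻¹ * b⁻¹) * b := by rw [hb]; group
  have h1 : (a * b * a⁻¹ * b⁻¹) * x = x * (a * b * a⁻¹ * b⁻¹) :=
    h.2.1 _ (commElem_mem ha hy) x (Subgroup.mem_sup_right hx)
  have h2 : x * b = b * x := comm_of_isMulCommutative hB hx hy
  rw [hy']
  calc x * ((a * b * a⁻¹ * b⁻¹) * b) = (x * (a * b * a⁻¹ * b⁻¹)) * b := by group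
    _ = ((a * b * a⁻¹ * b⁻¹) * x) * b := by rw [h1]
    _ = (a * b * a⁻¹ * b⁻¹) * (x * b) := by group
    _ = (a * b * a⁻¹ * b⁻¹) * (b * x) := by rw [h2]
    _ = _ := by group

/-- conjugating `A` by `b ∈ B` in the commutator case stays inside `A ⊔ ⁅A, B⁆` -/
theorem commCase_conjBy_le {A B : Subgroup G} {b : G} (hb : b ∈ B) :
    conjBy A b ≤ A ⊔ ⁅A, B⁆ := by
  intro y hy
  rw [mem_conjBy] at hy
  obtain ⟨a, ha⟩ : ∃ a, a = b⁻¹ * y * b := ⟨_, rfl⟩
  rw [← ha] at hy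
  have hy' : y = (a * b * a⁻¹ * b⁻¹)⁻¹ * a := by rw [ha]; group
  rw [hy']
  exact Subgroup.mul_mem _ (Subgroup.mem_sup_right (Subgroup.inv_mem _ (commElem_mem hy hb)))
    (Subgroup.mem_sup_left hy)

end RootSet

end Cfsg.Agent.Lib.Helper25.CommCase
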