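import Mathlib
import Cfsg.Prelude.Def_RootSubgroups
import Cfsg.Agent.Lib.Helper25.CommCase

set_option autoImplicit false

namespace Cfsg.Agent.Lib.Helper25.Line

open Cfsg Cfsg.Agent.Lib.Helper25.RankOne Cfsg.Agent.Lib.Helper25.RootSet
  Cfsg.Agent.Lib.Helper25.CommCase

variable {G : Type*} [Group G] {S : Set (Subgroup G)}

theorem mem_sup_comm_iff {A B : Subgroup G} (h : RootCommutatorCase S A B) {g : G} :
    g ∈ A ⊔ ⁅A, B⁆ ↔ ∃ a ∈ A, ∃ c ∈ ⁅A, B⁆, g = a * c :=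
  mem_sup_of_commute (fun x hx y hy => (h.2.1 y hy x (Subgroup.mem_sup_left hx)).symm)

theorem exists_conj_eq_mul {A B : Subgroup G} (h : RootCommutatorCase S A B) {a : G}
    (ha : a ∈ A) (ha1 : a ≠ 1) {c : G} (hc : c ∈ ⁅A, B⁆) : ∃ b ∈ B, b * a * b⁻¹ = a * c := by
  obtain ⟨b, hb, hbc⟩ := exists_right_of_commCase h ha ha1 (Subgroup.inv_mem _ hc)
  refine ⟨b, hb, ?_⟩
  have h1 : b * a * b⁻¹ = (a * b * a⁻¹ * b⁻¹)⁻¹ * a := by group
  rw [h1, hbc, inv_inv]
  exact h.2.1 c hc a (Subgroup.mem_sup_left ha)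

theorem cover {A B : Subgroup G} (h : RootCommutatorCase S A B) {x : G}
    (hx : x ∈ A ⊔ ⁅A, B⁆) : (∃ b ∈ B, x ∈ conjBy A b) ∨ x ∈ ⁅A, B⁆ := by
  obtain ⟨a, ha, c, hc, rfl⟩ := (mem_sup_comm_iff h).mp hx
  by_cases ha1 : a = 1
  · right; rw [ha1, one_mul]; exact hc
  · left
    obtain ⟨b, hb, hbe⟩ := exists_conj_eq_mul h ha ha1 hc
    refine ⟨b, hb, ?_⟩
    rw [← hbe]
    exact conj_mem_conjBy ha

section Partner

variable (hS : IsRootSubgroupSet S) {A A' B : Subgroup G} (hA : A ∈ S) (hA' : A' ∈ S)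
  (hp : IsRankOnePair A A') (h : RootCommutatorCase S A B)

include hS hA hA' hp h

/-- no nonidentity element of `⁅A, B⁆` commutes with a rank one partner of `A` -/
theorem commCase_not_commute_partner {e : G} (he : e ∈ ⁅A, B⁆)
    (hcomm : ∀ x ∈ A', e * x = x * e) : e = 1 := by
  by_contra he1
  obtain ⟨a, ha, ha1⟩ := exists_ne_one_left hp
  obtain ⟨b, hb, hbe⟩ := exists_conj_eq_mul h ha ha1 he
  have hea : e * a = a * e := h.2.1 e he a (Subgroup.mem_sup_left ha)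
  have hz : ∀ x ∈ A ⊔ A', e * x = x * e :=
    comm_sup_elem (fun y hy => h.2.1 e he y (Subgroup.mem_sup_left hy)) hcomm
  apply central_mul_not_root hS hA hA' hp hz he1 ha ha1
  refine ⟨?_, conjBy A b, hS.conj_mem A hA b, ?_⟩
  · intro h1
    have h2 : e = a⁻¹ := eq_inv_of_mul_eq_one_left h1
    have h3 : e ∈ A ⊓ ⁅A, B⁆ := ⟨by rw [h2]; exact A.inv_mem ha, he⟩
    rw [commCase_inf_eq_bot hS hA hA' hp h, Subgroup.mem_bot] at h3
    exact he1 h3
  · rw [hea, ← hbe]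
    exact conj_mem_conjBy ha

/-- a member of `S` inside `⁅A, B⁆` is `⁅A, B⁆` -/
theorem eq_commutator_of_le {E : Subgroup G} (hE : E ∈ S) (hle : E ≤ ⁅A, B⁆) : E = ⁅A, B⁆ := by
  have hC := h.1
  obtain ⟨e, he, he1⟩ : ∃ e ∈ E, e ≠ 1 := by
    by_contra hcon
    push Not at hcon
    exact hS.ne_bot E hE ((eq_bot_iff).mpr fun x hx => hcon x hx)
  have hinf : E ⊓ ⁅A, B⁆ ≠ ⊥ := by
    rw [inf_eq_left.mpr hle]; exact hS.ne_bot E hE
  rcases hS.pair _ hC A' hA' with hc | hr | hcc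
  · exfalso
    apply he1
    apply commCase_not_commute_partner hS hA hA' hp h (hle he)
    intro x hx
    exact comm_of_commutator_eq_bot hc (hle he) hx
  · rcases inf_eq_bot_or_eq hS hC hA' hr hE with h1 | h1
    · rw [inf_comm] at h1; exact absurd h1 hinf
    · exact h1.symm
  · rcases hS.pair E hE A' hA' with hc' | hr' | hee
    · exfalso
      apply he1
      apply commCase_not_commute_partner hS hA hA' hp h (hle he)
      intro x hx
      exact comm_of_commutator_eq_bot hc' he hx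
    · rcases inf_eq_bot_or_eq hS hE hA' hr' hC with h1 | h1
      · exact absurd h1 hinf
      · exact h1
    · have hFF : ⁅E, A'⁆ = ⁅⁅A, B⁆, A'⁆ := by
        rw [← hee.2.2.1 e he he1, ← hcc.2.2.1 e (hle he) he1]
      apply le_antisymm hle
      intro c hc
      obtain ⟨a', ha', ha'1⟩ := exists_ne_one_right hp
      have hk : c * a' * c⁻¹ * a'⁻¹ ∈ ⁅E, A'⁆ := by
        rw [hFF]; exact commElem_mem hc ha'
      obtain ⟨e', he', hee'⟩ := exists_left_of_commCase hee ha' ha'1 hk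
      have hd : c * e'⁻¹ ∈ ⁅A, B⁆ := Subgroup.mul_mem _ hc (Subgroup.inv_mem _ (hle he'))
      have h1 : (c * e'⁻¹) * a' * (c * e'⁻¹)⁻¹ * a'⁻¹ = 1 := by
        rw [kap_mul_left hcc.2.1 hc (Subgroup.inv_mem _ (hle he')) ha',
          kap_inv_left hcc.2.1 (hle he') ha', hee', mul_inv_cancel]
      have h2 : a' * (c * e'⁻¹) = (c * e'⁻¹) * a' := by
        have h3 : (c * e'⁻¹) * a' = ((c * e'⁻¹) * a' * (c * e'⁻¹)⁻¹ * a'⁻¹) * (a' * (c * e'⁻¹)) := by
          group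
        rw [h3, h1, one_mul]
      have h4 : c * e'⁻¹ = 1 :=
        commCase_not_commute hS hA' hA (RankOnePair_symm hp) (commCase_symm hcc) ha' ha'1 hd h2
      have h5 : c = e' := by
        have := mul_inv_eq_one.mp h4
        exact this
      rw [h5]; exact he'

/-- the members of `S` inside `A ⊔ ⁅A, B⁆` -/
theorem mem_of_le_sup {E : Subgroup G} (hE : E ∈ S) (hle : E ≤ A ⊔ ⁅A, B⁆) :
    (∃ b ∈ B, E = conjBy A b) ∨ E = ⁅A, B⁆ := by
  by_cases hex : ∃ e ∈ E, e ≠ 1 ∧ ∃ b ∈ B, e ∈ conjBy A b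
  · left
    obtain ⟨e, he, he1, b, hb, heb⟩ := hex
    refine ⟨b, hb, ?_⟩
    rcases inf_eq_bot_or_eq hS (hS.conj_mem A hA b) (hS.conj_mem A' hA' b)
      (isRankOnePair_conjBy b hp) hE with h1 | h1
    · exfalso
      have : e ∈ conjBy A b ⊓ E := ⟨heb, he⟩
      rw [h1, Subgroup.mem_bot] at this
      exact he1 this
    · exact h1.symm
  · right
    push Not at hex
    apply eq_commutator_of_le hS hA hA' hp h hE
    intro e he
    by_cases he1 : e = 1
    · rw [he1]; exact Subgroup.one_mem _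
    · rcases cover h (hle he) with ⟨b, hb, heb⟩ | h1
      · exact absurd heb (hex e he he1 b hb)
      · exact h1

theorem membersIn_eq :
    membersIn S (A ⊔ ⁅A, B⁆) = (fun b : G => conjBy A b) '' (B : Set G) ∪ {⁅A, B⁆} := by
  ext E
  constructor
  · rintro ⟨hE, hle⟩
    rcases mem_of_le_sup hS hA hA' hp h hE hle with ⟨b, hb, rfl⟩ | h1
    · left; exact ⟨b, hb, rfl⟩
    · right; exact h1
  · rintro (⟨b, hb, rfl⟩ | h1)
    · exact ⟨hS.conj_mem A hA b, commCase_conjBy_le hb⟩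
    · rw [Set.mem_singleton_iff] at h1
      rw [h1]
      exact ⟨h.1, le_sup_right⟩

theorem isSubgroupPartition_sup :
    IsSubgroupPartition (A ⊔ ⁅A, B⁆) (membersIn S (A ⊔ ⁅A, B⁆)) := by
  refine ⟨fun E hE => hE.2, ?_, ?_⟩
  · intro x hx hx1
    rcases cover h hx with ⟨b, hb, hxb⟩ | h1
    · exact ⟨conjBy A b, ⟨hS.conj_mem A hA b, commCase_conjBy_le hb⟩, hxb⟩
    · exact ⟨⁅A, B⁆, ⟨h.1, le_sup_right⟩, h1⟩
  · rintro D ⟨hD, hDle⟩ E ⟨hE, hEle⟩ hDE
    rcases mem_of_le_sup hS hA hA' hp h hD hDle with ⟨b, hb, rfl⟩ | h1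
    · rcases inf_eq_bot_or_eq hS (hS.conj_mem A hA b) (hS.conj_mem A' hA' b)
        (isRankOnePair_conjBy b hp) hE with h2 | h2
      · exact h2
      · exact absurd h2 hDE
    · rcases mem_of_le_sup hS hA hA' hp h hE hEle with ⟨b, hb, rfl⟩ | h2
      · rcases inf_eq_bot_or_eq hS (hS.conj_mem A hA b) (hS.conj_mem A' hA' b)
          (isRankOnePair_conjBy b hp) hD with h3 | h3
        · rw [inf_comm]; exact h3
        · exact absurd h3.symm hDE
      · exact absurd (h1.trans h2.symm) hDE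

theorem left_mem_linePartners : A ∈ linePartners S ⁅A, B⁆ := by
  refine ⟨⟨hA, commCase_left_ne hS h, ?_⟩, ?_⟩
  · apply commutator_eq_bot_of_comm
    intro x hx y hy
    exact h.2.1 x hx y (Subgroup.mem_sup_left hy)
  · rw [sup_comm]
    exact isSubgroupPartition_sup hS hA hA' hp h

theorem exists_mulEquiv {a : G} (ha : a ∈ A) (ha1 : a ≠ 1) :
    ∃ φ : ↥B ≃* ↥⁅A, B⁆, ∀ b : ↥B, (φ b : G) = a⁻¹ * (b : G)⁻¹ * a * b := by
  have hmem : ∀ b : ↥B, a⁻¹ * (b : G)⁻¹ * a * b ∈ ⁅A, B⁆ := by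
    intro b
    rw [kap_inv_inv h.2.1 ha b.2]
    exact commElem_mem ha b.2
  let f : ↥B →* ↥⁅A, B⁆ :=
    { toFun := fun b => ⟨a⁻¹ * (b : G)⁻¹ * a * b, hmem b⟩
      map_one' := by
        apply Subtype.ext
        simp
      map_mul' := by
        intro b b'
        apply Subtype.ext
        show a⁻¹ * ((b : G) * (b' : G))⁻¹ * a * ((b : G) * (b' : G)) =
          (a⁻¹ * (b : G)⁻¹ * a * b) * (a⁻¹ * (b' : G)⁻¹ * a * b')
        rw [kap_inv_inv h.2.1 ha (B.mul_mem b.2 b'.2), kap_inv_inv h.2.1 ha b.2,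
          kap_inv_inv h.2.1 ha b'.2, kap_mul_right h.2.1 ha b.2 b'.2] }
  have hf : ∀ b : ↥B, ((f b : ↥⁅A, B⁆) : G) = a⁻¹ * (b : G)⁻¹ * a * b := fun b => rfl
  have hinj : Function.Injective f := by
    rw [injective_iff_map_eq_one]
    intro b hb
    have h1 : a⁻¹ * (b : G)⁻¹ * a * b = 1 := by
      rw [← hf b, hb]; rfl
    have h2 : a * (b : G) = b * a := by
      have h3 : a * (b : G) = (b : G) * a * (a⁻¹ * (b : G)⁻¹ * a * b) := by group
      rw [h3, h1, mul_one]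
    apply Subtype.ext
    exact commCase_not_commute hS hA hA' hp h ha ha1 b.2 h2
  have hsurj : Function.Surjective f := by
    rintro ⟨c, hc⟩
    obtain ⟨b, hb, hbc⟩ := exists_right_of_commCase h ha ha1 hc
    refine ⟨⟨b, hb⟩, ?_⟩
    apply Subtype.ext
    rw [hf]
    show a⁻¹ * b⁻¹ * a * b = c
    rw [kap_inv_inv h.2.1 ha hb, hbc]
  exact ⟨MulEquiv.ofBijective f ⟨hinj, hsurj⟩, fun b => rfl⟩

omit hS hA hA' hp in
theorem sup_conjBy_eq {b : G} (hb : b ∈ B) (hb1 : b ≠ 1) : A ⊔ conjBy A b = A ⊔ ⁅A, B⁆ := by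
  apply le_antisymm
  · exact sup_le le_sup_left (commCase_conjBy_le hb)
  · apply sup_le le_sup_left
    rw [← h.2.2.2 b hb hb1, Subgroup.closure_le]
    rintro _ ⟨x, hx, rfl⟩
    have h3 : x * b * x⁻¹ * b⁻¹ = x * (b * x⁻¹ * b⁻¹) := by group
    show x * b * x⁻¹ * b⁻¹ ∈ A ⊔ conjBy A b
    rw [h3]
    exact Subgroup.mul_mem _ (Subgroup.mem_sup_left hx)
      (Subgroup.mem_sup_right (conj_mem_conjBy (A.inv_mem hx)))

/-- conjugates of `A` under nonidentity elements of `B` are line partners of `A` -/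
theorem conjBy_mem_linePartners {b : G} (hb : b ∈ B) (hb1 : b ≠ 1) :
    conjBy A b ∈ linePartners S A := by
  refine ⟨⟨hS.conj_mem A hA b, (commCase_conjBy_ne hS hA hA' hp h hb hb1).symm, ?_⟩, ?_⟩
  · apply commutator_eq_bot_of_comm
    exact commCase_conjBy_comm (hS.commutative A hA) (commCase_symm h) hb
  · rw [sup_conjBy_eq h hb hb1]
    exact isSubgroupPartition_sup hS hA hA' hp h

end Partner

end Cfsg.Agent.Lib.Helper25.Line
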