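import Mathlib
import Cfsg.Prelude.Def_RootSubgroups
import Cfsg.Agent.Lib.Helper25.Line

set_option autoImplicit false

namespace Cfsg.Agent.Lib.Helper25.ChainBasic

open Cfsg Cfsg.Agent.Lib.Helper25.RankOne Cfsg.Agent.Lib.Helper25.RootSet
  Cfsg.Agent.Lib.Helper25.CommCase

variable {G : Type*} [Group G]

theorem conj_mem_of_le_normalizer {K H : Subgroup G}
    (hN : H ≤ Subgroup.normalizer (K : Set G)) {x k : G} (hx : x ∈ H) (hk : k ∈ K) :
    x * k * x⁻¹ ∈ K := by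
  have h := mem_normalizer_iff_conjBy.mp (hN hx)
  rw [← h]; exact conj_mem_conjBy hk

theorem le_normalizer_of_conjBy {K H : Subgroup G} (h : ∀ x ∈ H, conjBy K x = K) :
    H ≤ Subgroup.normalizer (K : Set G) :=
  fun x hx => mem_normalizer_iff_conjBy.mpr (h x hx)

theorem le_normalizer_of_comm {K H : Subgroup G} (h : ∀ x ∈ H, ∀ k ∈ K, x * k = k * x) :
    H ≤ Subgroup.normalizer (K : Set G) :=
  le_normalizer_of_conjBy (fun x hx => conjBy_eq_of_commute (h x hx))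

theorem le_normalizer_bot (H : Subgroup G) : H ≤ Subgroup.normalizer ((⊥ : Subgroup G) : Set G) :=
  le_normalizer_of_comm (fun x _ k hk => by rw [Subgroup.mem_bot.mp hk]; simp)

theorem le_normalizer_self (H : Subgroup G) : H ≤ Subgroup.normalizer (H : Set G) :=
  le_normalizer_of_conjBy (fun _ hx => conjBy_of_mem hx)

theorem le_normalizer_sup {H K₁ K₂ : Subgroup G} (h1 : H ≤ Subgroup.normalizer (K₁ : Set G))
    (h2 : H ≤ Subgroup.normalizer (K₂ : Set G)) :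
    H ≤ Subgroup.normalizer ((K₁ ⊔ K₂ : Subgroup G) : Set G) := by
  apply le_normalizer_of_conjBy
  intro x hx
  rw [conjBy_sup, mem_normalizer_iff_conjBy.mp (h1 hx), mem_normalizer_iff_conjBy.mp (h2 hx)]

/-- if `⁅H, K⁆ ≤ K` then `H` normalizes `K` -/
theorem le_normalizer_of_commutator_le {H K : Subgroup G} (h : ⁅H, K⁆ ≤ K) :
    H ≤ Subgroup.normalizer (K : Set G) := by
  rw [Subgroup.commutator_le] at h
  have hle : ∀ x ∈ H, conjBy K x ≤ K := by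
    intro x hx y hy
    rw [mem_conjBy] at hy
    have e : y = (x * (x⁻¹ * y * x) * x⁻¹ * (x⁻¹ * y * x)⁻¹) * (x⁻¹ * y * x) := by group
    rw [e]
    exact K.mul_mem (h x hx _ hy) hy
  apply le_normalizer_of_conjBy
  intro x hx
  exact conjBy_eq_of_le_of_inv_le (hle x hx) (hle x⁻¹ (H.inv_mem hx))

theorem commutator_le_of_le_normalizer {H L K : Subgroup G} (hH : H ≤ K)
    (hL : L ≤ Subgroup.normalizer (K : Set G)) : ⁅H, L⁆ ≤ K := by
  rw [Subgroup.commutator_le]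
  intro x hx g hg
  show x * g * x⁻¹ * g⁻¹ ∈ K
  have e : x * g * x⁻¹ * g⁻¹ = x * (g * x⁻¹ * g⁻¹) := by group
  rw [e]
  exact K.mul_mem (hH hx) (conj_mem_of_le_normalizer hL hg (K.inv_mem (hH hx)))

theorem sup_commutator_le {K H₁ H₂ L : Subgroup G}
    (hN : H₁ ⊔ H₂ ≤ Subgroup.normalizer (K : Set G)) (h1 : ⁅H₁, L⁆ ≤ K) (h2 : ⁅H₂, L⁆ ≤ K) :
    ⁅H₁ ⊔ H₂, L⁆ ≤ K := by
  rw [Subgroup.commutator_le] at h1 h2 ⊢
  intro x hx g hg
  show x * g * x⁻¹ * g⁻¹ ∈ K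
  have key : ∀ y ∈ Subgroup.closure ((H₁ : Set G) ∪ (H₂ : Set G)), y * g * y⁻¹ * g⁻¹ ∈ K := by
    intro y hy
    induction hy using Subgroup.closure_induction with
    | mem z hz =>
      rcases hz with hz | hz
      · exact h1 z hz g hg
      · exact h2 z hz g hg
    | one =>
      have e : (1 : G) * g * 1⁻¹ * g⁻¹ = 1 := by group
      rw [e]; exact K.one_mem
    | mul y z hy hz ihy ihz =>
      have e : (y * z) * g * (y * z)⁻¹ * g⁻¹ = y * (z * g * z⁻¹ * g⁻¹) * y⁻¹ * (y * g * y⁻¹ * g⁻¹) := by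
        group
      rw [e]
      rw [← Subgroup.sup_eq_closure] at hy
      exact K.mul_mem (conj_mem_of_le_normalizer hN hy ihz) ihy
    | inv y hy ih =>
      have e : y⁻¹ * g * y⁻¹⁻¹ * g⁻¹ = y⁻¹ * (y * g * y⁻¹ * g⁻¹)⁻¹ * y⁻¹⁻¹ := by group
      rw [e]
      rw [← Subgroup.sup_eq_closure] at hy
      exact conj_mem_of_le_normalizer hN (Subgroup.inv_mem _ hy) (K.inv_mem ih)
  rw [Subgroup.sup_eq_closure] at hx
  exact key x hx

theorem commutator_sup_le {K H L₁ L₂ : Subgroup G}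
    (hN : L₁ ⊔ L₂ ≤ Subgroup.normalizer (K : Set G)) (h1 : ⁅H, L₁⁆ ≤ K) (h2 : ⁅H, L₂⁆ ≤ K) :
    ⁅H, L₁ ⊔ L₂⁆ ≤ K := by
  rw [Subgroup.commutator_comm] at h1 h2 ⊢
  exact sup_commutator_le hN h1 h2

/-- a series of subgroups with `⁅H i, R⁆ ≤ H (i + 1)` reaching `⊥` shows that `R` is nilpotent -/
theorem isNilpotent_of_series {R : Subgroup G} (H : ℕ → Subgroup G) (n : ℕ) (h0 : R ≤ H 0)
    (hn : H n = ⊥) (hstep : ∀ i, ⁅H i, R⁆ ≤ H (i + 1)) : Group.IsNilpotent ↥R := by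
  rw [Subgroup.nilpotent_iff_finite_descending_central_series]
  refine ⟨n, fun i => (H i).subgroupOf R, ⟨?_, ?_⟩, ?_⟩
  · exact Subgroup.subgroupOf_eq_top.mpr h0
  · intro x i hx g
    rw [Subgroup.mem_subgroupOf] at hx ⊢
    have h := hstep i
    rw [Subgroup.commutator_le] at h
    exact h _ hx _ g.2
  · show (H n).subgroupOf R = ⊥
    rw [hn]; exact Subgroup.bot_subgroupOf (H := R)

theorem isNilpotent_of_chain5 {R H1 H2 H3 H4 : Subgroup G} (s0 : ⁅R, R⁆ ≤ H1)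
    (s1 : ⁅H1, R⁆ ≤ H2) (s2 : ⁅H2, R⁆ ≤ H3) (s3 : ⁅H3, R⁆ ≤ H4) (s4 : ⁅H4, R⁆ ≤ ⊥) :
    Group.IsNilpotent ↥R := by
  let H : ℕ → Subgroup G := fun i =>
    match i with
    | 0 => R
    | 1 => H1
    | 2 => H2
    | 3 => H3
    | 4 => H4
    | _ => ⊥
  apply isNilpotent_of_series H 5 (le_refl R) rfl
  intro i
  rcases i with _ | _ | _ | _ | _ | i
  · exact s0
  · exact s1
  · exact s2
  · exact s3
  · exact s4
  · show ⁅(⊥ : Subgroup G), R⁆ ≤ _
    rw [Subgroup.commutator_bot_left]; exact bot_le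

/-- two commuting abelian subgroups generate an abelian group -/
theorem comm_sup_sup {P Q : Subgroup G} (hP : IsMulCommutative P) (hQ : IsMulCommutative Q)
    (h : ∀ x ∈ P, ∀ y ∈ Q, x * y = y * x) : ∀ x ∈ P ⊔ Q, ∀ y ∈ P ⊔ Q, x * y = y * x := by
  have h1 : ∀ x ∈ P, ∀ y ∈ P ⊔ Q, x * y = y * x :=
    comm_sup_right (fun x hx y hy => comm_of_isMulCommutative hP hx hy) h
  have h2 : ∀ x ∈ Q, ∀ y ∈ P ⊔ Q, x * y = y * x :=
    comm_sup_right (fun x hx y hy => (h y hy x hx).symm)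
      (fun x hx y hy => comm_of_isMulCommutative hQ hx hy)
  intro x hx y hy
  exact (comm_sup_elem (fun z hz => (h1 z hz y hy).symm) (fun z hz => (h2 z hz y hy).symm) x hx).symm

theorem isMulCommutative_of_comm {K : Subgroup G} (h : ∀ x ∈ K, ∀ y ∈ K, x * y = y * x) :
    IsMulCommutative ↥K := by
  constructor
  constructor
  rintro ⟨x, hx⟩ ⟨y, hy⟩
  apply Subtype.ext
  exact h x hx y hy

theorem comm_sup_left {H K L : Subgroup G} (h1 : ∀ x ∈ H, ∀ y ∈ L, x * y = y * x)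
    (h2 : ∀ x ∈ K, ∀ y ∈ L, x * y = y * x) : ∀ x ∈ H ⊔ K, ∀ y ∈ L, x * y = y * x := by
  intro x hx y hy
  exact (comm_sup_elem (fun z hz => (h1 z hz y hy).symm) (fun z hz => (h2 z hz y hy).symm) x hx).symm

theorem comm_conjBy {H K : Subgroup G} (g : G) (h : ∀ x ∈ H, ∀ y ∈ K, x * y = y * x) :
    ∀ x ∈ conjBy H g, ∀ y ∈ conjBy K g, x * y = y * x := by
  intro x hx y hy
  rw [mem_conjBy] at hx hy
  have h1 := h _ hx _ hy
  have e1 : x * y = g * ((g⁻¹ * x * g) * (g⁻¹ * y * g)) * g⁻¹ := by group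
  have e2 : y * x = g * ((g⁻¹ * y * g) * (g⁻¹ * x * g)) * g⁻¹ := by group
  rw [e1, e2, h1]

theorem conjBy_commutator (H K : Subgroup G) (g : G) :
    conjBy ⁅H, K⁆ g = ⁅conjBy H g, conjBy K g⁆ :=
  Subgroup.map_commutator H K _

end Cfsg.Agent.Lib.Helper25.ChainBasic
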