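import Mathlib
import Cfsg.Prelude.Def_RootSubgroups
import Cfsg.Agent.Lib.Helper25.ChainBasic

set_option autoImplicit false

namespace Cfsg.Agent.Lib.Helper25.Chain

open Cfsg Cfsg.Agent.Lib.Helper25.RankOne Cfsg.Agent.Lib.Helper25.RootSet
  Cfsg.Agent.Lib.Helper25.CommCase Cfsg.Agent.Lib.Helper25.Line
  Cfsg.Agent.Lib.Helper25.ChainBasic

variable {G : Type*} [Group G] {S : Set (Subgroup G)}

/-! ### pairs that are not rank one -/

theorem central_of_not_rankOne (hS : IsRootSubgroupSet S) {P Q : Subgroup G} (hP : P ∈ S)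
    (hQ : Q ∈ S) (hn : ¬ IsRankOnePair P Q) : ∀ z ∈ ⁅P, Q⁆, ∀ x ∈ P ⊔ Q, z * x = x * z := by
  rcases hS.pair P hP Q hQ with h | h | h
  · intro z hz x _
    rw [h, Subgroup.mem_bot] at hz
    rw [hz]; simp
  · exact absurd h hn
  · exact h.2.1

theorem commutator_sup_le_of_not_rankOne (hS : IsRootSubgroupSet S) {P Q : Subgroup G}
    (hP : P ∈ S) (hQ : Q ∈ S) (hn : ¬ IsRankOnePair P Q) : ⁅P ⊔ Q, P ⊔ Q⁆ ≤ ⁅P, Q⁆ := by
  have hc := central_of_not_rankOne hS hP hQ hn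
  have hN : P ⊔ Q ≤ Subgroup.normalizer ((⁅P, Q⁆ : Subgroup G) : Set G) :=
    le_normalizer_of_comm (fun x hx k hk => (hc k hk x hx).symm)
  have hPP : ⁅P, P⁆ ≤ ⁅P, Q⁆ := by
    rw [commutator_eq_bot_of_comm
      (fun x hx y hy => comm_of_isMulCommutative (hS.commutative P hP) hx hy)]
    exact bot_le
  have hQQ : ⁅Q, Q⁆ ≤ ⁅P, Q⁆ := by
    rw [commutator_eq_bot_of_comm
      (fun x hx y hy => comm_of_isMulCommutative (hS.commutative Q hQ) hx hy)]
    exact bot_le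
  have hQP : ⁅Q, P⁆ ≤ ⁅P, Q⁆ := by rw [Subgroup.commutator_comm]
  apply sup_commutator_le hN
  · exact commutator_sup_le hN hPP le_rfl
  · exact commutator_sup_le hN hQP hQQ

theorem class_two_of_not_rankOne (hS : IsRootSubgroupSet S) {P Q : Subgroup G} (hP : P ∈ S)
    (hQ : Q ∈ S) (hn : ¬ IsRankOnePair P Q) : ⁅⁅P ⊔ Q, P ⊔ Q⁆, P ⊔ Q⁆ = ⊥ := by
  have hc := central_of_not_rankOne hS hP hQ hn
  have h1 := commutator_sup_le_of_not_rankOne hS hP hQ hn
  apply commutator_eq_bot_of_comm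
  intro z hz x hx
  exact hc z (h1 hz) x hx

theorem bot_or_mem_of_not_rankOne (hS : IsRootSubgroupSet S) {P Q : Subgroup G} (hP : P ∈ S)
    (hQ : Q ∈ S) (hn : ¬ IsRankOnePair P Q) : ⁅P, Q⁆ = ⊥ ∨ ⁅P, Q⁆ ∈ S := by
  rcases hS.pair P hP Q hQ with h | h | h
  · left; exact h
  · exact absurd h hn
  · right; exact h.1

/-- if `Z` is trivial or a member of `S` inside an abelian subgroup normalized by `B ∈ S`, then
`B` acts quadratically on `Z` -/
theorem comm_comm_eq_bot (hS : IsRootSubgroupSet S) {B Z Zc : Subgroup G} (hB : B ∈ S)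
    (hZ : Z = ⊥ ∨ Z ∈ S) (hZle : Z ≤ Zc) (hab : ∀ x ∈ Zc, ∀ y ∈ Zc, x * y = y * x)
    (hN : B ≤ Subgroup.normalizer (Zc : Set G)) : ⁅⁅Z, B⁆, B⁆ = ⊥ := by
  rcases hZ with hZ | hZ
  · rw [hZ, Subgroup.commutator_bot_left, Subgroup.commutator_bot_left]
  · rcases hS.pair Z hZ B hB with h | h | h
    · rw [h, Subgroup.commutator_bot_left]
    · exfalso
      obtain ⟨b', hb', hb'1⟩ := exists_ne_one_right h
      apply hb'1
      apply eq_one_of_mem_of_conjBy_eq' h hb'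
      apply eq_of_mem_of_le_normalizer h
        (conjBy_mem_unipotentSubgroups (left_mem_unipotentSubgroups Z B)
          (Subgroup.mem_sup_right hb')) (left_mem_unipotentSubgroups Z B)
      apply le_normalizer_of_comm
      intro x hx k hk
      have hx' : x ∈ Zc := by
        have h1 := conjBy_le_conjBy b' hZle hx
        rwa [mem_normalizer_iff_conjBy.mp (hN hb')] at h1
      exact hab x hx' k (hZle hk)
    · apply commutator_eq_bot_of_comm
      intro z hz x hx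
      exact h.2.1 z hz x (Subgroup.mem_sup_right hx)

/-! ### the configuration `A, B, C` with `(A, B)` in the commutator case and `A`, `C` commuting -/

theorem not_rankOne_comm (hS : IsRootSubgroupSet S) {A B C : Subgroup G} (hA : A ∈ S)
    (hC : C ∈ S) (hAB : RootCommutatorCase S A B) (hAC : ∀ a ∈ A, ∀ c ∈ C, a * c = c * a) :
    ¬ IsRankOnePair C ⁅A, B⁆ := by
  intro hr
  have hD := hAB.1
  obtain ⟨a, ha, b', hb', hne⟩ : ∃ a ∈ A, ∃ b' ∈ B, b' * a * b'⁻¹ * a⁻¹ ≠ 1 := by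
    by_contra hcon
    push Not at hcon
    apply hS.ne_bot _ hD
    apply commutator_eq_bot_of_comm
    intro x hx y hy
    have h1 := hcon x hx y hy
    have e : y * x = (y * x * y⁻¹ * x⁻¹) * (x * y) := by group
    rw [e, h1, one_mul]
  have ha1 : a ≠ 1 := by
    rintro rfl
    apply hne; group
  have hd : b' * a * b'⁻¹ * a⁻¹ ∈ ⁅A, B⁆ := by
    rw [Subgroup.commutator_comm]; exact commElem_mem hb' ha
  have hz : ∀ x ∈ ⁅A, B⁆ ⊔ C, a * x = x * a :=
    comm_sup_elem (fun y hy => (hAB.2.1 y hy a (Subgroup.mem_sup_left ha)).symm)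
      (fun y hy => hAC a ha y hy)
  have e : a * (b' * a * b'⁻¹ * a⁻¹) = b' * a * b'⁻¹ := by
    rw [hz _ (Subgroup.mem_sup_left hd)]; group
  apply central_mul_not_root hS hD hC (RankOnePair_symm hr) hz ha1 hd hne
  refine ⟨?_, conjBy A b', hS.conj_mem A hA b', ?_⟩
  · rw [e]
    intro h1
    apply ha1
    have e2 : a = b'⁻¹ * (b' * a * b'⁻¹) * b' := by group
    rw [e2, h1]; group
  · rw [e]; exact conj_mem_conjBy ha

theorem not_rankOne_conjBy (hS : IsRootSubgroupSet S) {A B C : Subgroup G} (hA : A ∈ S)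
    (hC : C ∈ S) (hAB : RootCommutatorCase S A B) (hAC : ∀ a ∈ A, ∀ c ∈ C, a * c = c * a)
    {b : G} (hb : b ∈ B) : ¬ IsRankOnePair (conjBy A b) C := by
  intro hr
  have hD : ⁅A, B⁆ ∈ S := hAB.1
  have hle : conjBy A b ≤ A ⊔ ⁅A, B⁆ := commCase_conjBy_le hb
  have hAD : ∀ a ∈ A, ∀ d ∈ ⁅A, B⁆, a * d = d * a :=
    fun a ha d hd => (hAB.2.1 d hd a (Subgroup.mem_sup_left ha)).symm
  obtain ⟨c, hc, hc1⟩ := exists_ne_one_right hr
  obtain ⟨x, hx, hx1⟩ := exists_ne_one_left hr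
  rcases hS.pair C hC _ hD with h | h | h
  · have hCD : ∀ y ∈ A ⊔ ⁅A, B⁆, c * y = y * c :=
      comm_sup_elem (fun y hy => (hAC y hy c hc).symm)
        (fun y hy => comm_of_commutator_eq_bot h hc hy)
    exact hc1 (not_commute_of_pair hr hx hx1 hc (hCD x (hle hx)).symm)
  · exact not_rankOne_comm hS hA hC hAB hAC h
  · apply hc1
    apply eq_one_of_mem_of_conjBy_eq' hr hc
    have hEc : ∀ f ∈ ⁅C, ⁅A, B⁆⁆, ∀ y ∈ A ⊔ ⁅A, B⁆, f * y = y * f := by
      intro f hf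
      apply comm_sup_elem
      · intro y hy
        have h1 : ∀ z ∈ C ⊔ ⁅A, B⁆, y * z = z * y :=
          comm_sup_elem (fun z hz => hAC y hy z hz) (fun z hz => hAD y hy z hz)
        exact (h1 f (commutator_le_sup _ _ hf)).symm
      · intro y hy
        exact h.2.1 f hf y (Subgroup.mem_sup_right hy)
    have hnorm : conjBy (conjBy A b) c ≤ Subgroup.normalizer ((conjBy A b : Subgroup G) : Set G) := by
      apply conjBy_le_normalizer_of_comm (F := ⁅C, ⁅A, B⁆⁆)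
      · intro y hy
        obtain ⟨a', ha', d', hd', rfl⟩ := (mem_sup_comm_iff hAB).mp (hle hy)
        have hca : c * a' = a' * c := (hAC a' ha' c hc).symm
        have hka : a' * (c * d' * c⁻¹ * d'⁻¹) = (c * d' * c⁻¹ * d'⁻¹) * a' :=
          (hEc _ (commElem_mem hc hd') a' (Subgroup.mem_sup_left ha')).symm
        have e : c * (a' * d') * c⁻¹ * (a' * d')⁻¹ = c * d' * c⁻¹ * d'⁻¹ := by
          calc c * (a' * d') * c⁻¹ * (a' * d')⁻¹ = (c * a') * d' * c⁻¹ * d'⁻¹ * a'⁻¹ := by group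
            _ = (a' * c) * d' * c⁻¹ * d'⁻¹ * a'⁻¹ := by rw [hca]
            _ = (a' * (c * d' * c⁻¹ * d'⁻¹)) * a'⁻¹ := by group
            _ = ((c * d' * c⁻¹ * d'⁻¹) * a') * a'⁻¹ := by rw [hka]
            _ = _ := by group
        rw [e]; exact commElem_mem hc hd'
      · intro f hf y hy
        exact hEc f hf y (hle hy)
    exact eq_of_mem_of_le_normalizer hr
      (conjBy_mem_unipotentSubgroups (left_mem_unipotentSubgroups _ _) (Subgroup.mem_sup_right hc))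
      (left_mem_unipotentSubgroups _ _) hnorm

theorem comm_conjBy_iff {A B C : Subgroup G} (hAB : RootCommutatorCase S A B)
    (hAC : ∀ a ∈ A, ∀ c ∈ C, a * c = c * a) {b : G} (hb : b ∈ B) (hb1 : b ≠ 1) :
    (∀ x ∈ C, ∀ y ∈ conjBy A b, x * y = y * x) ↔ (∀ x ∈ C, ∀ d ∈ ⁅A, B⁆, x * d = d * x) := by
  constructor
  · intro h x hx
    have hle : ⁅A, B⁆ ≤ Subgroup.centralizer ({x} : Set G) := by
      rw [← hAB.2.2.2 b hb hb1, Subgroup.closure_le]
      rintro _ ⟨a, ha, rfl⟩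
      rw [SetLike.mem_coe, Subgroup.mem_centralizer_iff]
      intro z hz
      rw [Set.mem_singleton_iff] at hz
      rw [hz]
      have h1 : x * a = a * x := (hAC a ha x hx).symm
      have h2 : x * (b * a⁻¹ * b⁻¹) = (b * a⁻¹ * b⁻¹) * x :=
        h x hx _ (conj_mem_conjBy (A.inv_mem ha))
      show x * (a * b * a⁻¹ * b⁻¹) = (a * b * a⁻¹ * b⁻¹) * x
      calc x * (a * b * a⁻¹ * b⁻¹) = (x * a) * (b * a⁻¹ * b⁻¹) := by group
        _ = (a * x) * (b * a⁻¹ * b⁻¹) := by rw [h1]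
        _ = a * (x * (b * a⁻¹ * b⁻¹)) := by group
        _ = a * ((b * a⁻¹ * b⁻¹) * x) := by rw [h2]
        _ = _ := by group
    intro d hd
    have h3 := hle hd
    rw [Subgroup.mem_centralizer_iff] at h3
    exact h3 x rfl
  · intro h x hx y hy
    have hle : conjBy A b ≤ A ⊔ ⁅A, B⁆ := commCase_conjBy_le hb
    exact comm_sup_elem (fun z hz => (hAC z hz x hx).symm) (fun z hz => h x hx z hz) y (hle hy)

theorem three_subgroups {A B C : Subgroup G} (hAC : ∀ a ∈ A, ∀ c ∈ C, a * c = c * a)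
    (h : ∀ a ∈ A, ∀ f ∈ ⁅C, B⁆, a * f = f * a) : ∀ c ∈ C, ∀ d ∈ ⁅A, B⁆, c * d = d * c := by
  have h1 : ⁅⁅B, C⁆, A⁆ = ⊥ := by
    rw [Subgroup.commutator_comm B C]
    exact commutator_eq_bot_of_comm (fun f hf a ha => (h a ha f hf).symm)
  have h2 : ⁅⁅C, A⁆, B⁆ = ⊥ := by
    have h0 : ⁅C, A⁆ = ⊥ := commutator_eq_bot_of_comm (fun c hc a ha => (hAC a ha c hc).symm)
    rw [h0, Subgroup.commutator_bot_left]
  have h3 := Subgroup.commutator_commutator_eq_bot_of_rotate h1 h2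
  intro c hc d hd
  exact (comm_of_commutator_eq_bot h3 hd hc).symm

theorem conjBy_comm_le {A B C P : Subgroup G} (hAC : ∀ a ∈ A, ∀ c ∈ C, a * c = c * a)
    (hAP : A ≤ P) (hDP : ⁅A, B⁆ ≤ P) (hFP : ⁅C, B⁆ ≤ P) {c : G} (hc : c ∈ C) :
    conjBy ⁅A, B⁆ c ≤ P := by
  unfold conjBy
  rw [Subgroup.map_le_iff_le_comap, Subgroup.commutator_le]
  intro a ha b' hb'
  rw [Subgroup.mem_comap]
  show c * (a * b' * a⁻¹ * b'⁻¹) * c⁻¹ ∈ P
  have hac : a * c = c * a := hAC a ha c hc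
  have h' : c⁻¹ * a⁻¹ * c = a⁻¹ := by
    have h0 : c⁻¹ * a⁻¹ * c = (a * c)⁻¹ * c := by group
    rw [h0, hac]; group
  have e : c * (a * b' * a⁻¹ * b'⁻¹) * c⁻¹ =
      (a * (c * b' * c⁻¹ * b'⁻¹) * a⁻¹) * (a * b' * a⁻¹ * b'⁻¹) * (c * b' * c⁻¹ * b'⁻¹)⁻¹ := by
    calc c * (a * b' * a⁻¹ * b'⁻¹) * c⁻¹ = (c * a) * b' * a⁻¹ * b'⁻¹ * c⁻¹ := by group
      _ = (a * c) * b' * a⁻¹ * b'⁻¹ * c⁻¹ := by rw [hac]
      _ = a * c * b' * (c⁻¹ * a⁻¹ * c) * b'⁻¹ * c⁻¹ := by rw [h']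
      _ = _ := by group
  rw [e]
  have hf : c * b' * c⁻¹ * b'⁻¹ ∈ P := hFP (commElem_mem hc hb')
  exact P.mul_mem (P.mul_mem (P.mul_mem (P.mul_mem (hAP ha) hf) (P.inv_mem (hAP ha)))
    (hDP (commElem_mem ha hb'))) (P.inv_mem hf)

/-! ### the main configuration -/

theorem comm_XY (hS : IsRootSubgroupSet S) {A B C : Subgroup G} (hA : A ∈ S) (hC : C ∈ S)
    (hAB : RootCommutatorCase S A B) (hCB : RootCommutatorCase S C B)
    (hAC : ∀ a ∈ A, ∀ c ∈ C, a * c = c * a) {b : G} (hb : b ∈ B) :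
    ∀ x ∈ A ⊔ conjBy C b, ∀ y ∈ conjBy A b ⊔ C, x * y = y * x := by
  have h1 : ∀ x ∈ A, ∀ y ∈ conjBy A b, x * y = y * x :=
    commCase_conjBy_comm (hS.commutative A hA) (commCase_symm hAB) hb
  have h2 : ∀ x ∈ C, ∀ y ∈ conjBy C b, x * y = y * x :=
    commCase_conjBy_comm (hS.commutative C hC) (commCase_symm hCB) hb
  have h3 : ∀ x ∈ conjBy A b, ∀ y ∈ conjBy C b, x * y = y * x := comm_conjBy b hAC
  apply comm_sup_left
  · exact comm_sup_right h1 hAC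
  · apply comm_sup_right
    · intro x hx y hy; exact (h3 y hy x hx).symm
    · intro x hx y hy; exact (h2 y hy x hx).symm

theorem sup_XY_eq {A B C : Subgroup G} (hAB : RootCommutatorCase S A B)
    (hCB : RootCommutatorCase S C B) {b : G} (hb : b ∈ B) (hb1 : b ≠ 1) :
    (A ⊔ conjBy C b) ⊔ (conjBy A b ⊔ C) = (A ⊔ ⁅A, B⁆) ⊔ (C ⊔ ⁅C, B⁆) := by
  rw [← sup_conjBy_eq hAB hb hb1, ← sup_conjBy_eq hCB hb hb1, sup_sup_sup_comm,
    sup_comm (conjBy C b) C]

theorem le_normalizer_P {A B C : Subgroup G}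
    (hAC : ∀ a ∈ A, ∀ c ∈ C, a * c = c * a) :
    A ⊔ B ⊔ C ≤ Subgroup.normalizer (((A ⊔ ⁅A, B⁆) ⊔ (C ⊔ ⁅C, B⁆) : Subgroup G) : Set G) := by
  have hAP : A ≤ (A ⊔ ⁅A, B⁆) ⊔ (C ⊔ ⁅C, B⁆) := le_sup_left.trans le_sup_left
  have hDP : ⁅A, B⁆ ≤ (A ⊔ ⁅A, B⁆) ⊔ (C ⊔ ⁅C, B⁆) := le_sup_right.trans le_sup_left
  have hCP : C ≤ (A ⊔ ⁅A, B⁆) ⊔ (C ⊔ ⁅C, B⁆) := le_sup_left.trans le_sup_right
  have hFP : ⁅C, B⁆ ≤ (A ⊔ ⁅A, B⁆) ⊔ (C ⊔ ⁅C, B⁆) := le_sup_right.trans le_sup_right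
  have hCA : ∀ c ∈ C, ∀ a ∈ A, c * a = a * c := fun c hc a ha => (hAC a ha c hc).symm
  have hBle : ∀ x ∈ B, conjBy ((A ⊔ ⁅A, B⁆) ⊔ (C ⊔ ⁅C, B⁆)) x ≤ (A ⊔ ⁅A, B⁆) ⊔ (C ⊔ ⁅C, B⁆) := by
    intro x hx
    rw [conjBy_sup, conjBy_sup, conjBy_sup, conjBy_commutator_right hx,
      conjBy_commutator_right hx]
    apply sup_le_sup
    · exact sup_le (commCase_conjBy_le hx) le_sup_right
    · exact sup_le (commCase_conjBy_le hx) le_sup_right
  have hAle : ∀ x ∈ A, conjBy ((A ⊔ ⁅A, B⁆) ⊔ (C ⊔ ⁅C, B⁆)) x ≤ (A ⊔ ⁅A, B⁆) ⊔ (C ⊔ ⁅C, B⁆) := by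
    intro x hx
    rw [conjBy_sup, conjBy_sup, conjBy_sup, conjBy_of_mem hx, conjBy_commutator_left hx,
      conjBy_eq_of_commute (C := C) (fun c hc => hAC x hx c hc)]
    refine sup_le le_sup_left (sup_le hCP ?_)
    exact conjBy_comm_le hCA hCP hFP hDP hx
  have hCle : ∀ x ∈ C, conjBy ((A ⊔ ⁅A, B⁆) ⊔ (C ⊔ ⁅C, B⁆)) x ≤ (A ⊔ ⁅A, B⁆) ⊔ (C ⊔ ⁅C, B⁆) := by
    intro x hx
    rw [conjBy_sup, conjBy_sup, conjBy_sup, conjBy_of_mem hx, conjBy_commutator_left hx,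
      conjBy_eq_of_commute (C := A) (fun a ha => hCA x hx a ha)]
    refine sup_le (sup_le hAP ?_) le_sup_right
    exact conjBy_comm_le hAC hAP hDP hFP hx
  refine sup_le (sup_le ?_ ?_) ?_
  · exact le_normalizer_of_conjBy
      (fun x hx => conjBy_eq_of_le_of_inv_le (hAle x hx) (hAle x⁻¹ (A.inv_mem hx)))
  · exact le_normalizer_of_conjBy
      (fun x hx => conjBy_eq_of_le_of_inv_le (hBle x hx) (hBle x⁻¹ (B.inv_mem hx)))
  · exact le_normalizer_of_conjBy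
      (fun x hx => conjBy_eq_of_le_of_inv_le (hCle x hx) (hCle x⁻¹ (C.inv_mem hx)))

theorem conjBy_le_of_mem {H K : Subgroup G} (h : H ≤ K) {g : G} (hg : g ∈ K) :
    conjBy H g ≤ K := by
  have h1 := conjBy_le_conjBy g h
  rwa [conjBy_of_mem hg] at h1

theorem sup_B_eq {A B C : Subgroup G} {b : G} (hb : b ∈ B) :
    ((A ⊔ conjBy C b) ⊔ (conjBy A b ⊔ C)) ⊔ B = A ⊔ B ⊔ C := by
  have hbR : b ∈ A ⊔ B ⊔ C := Subgroup.mem_sup_left (Subgroup.mem_sup_right hb)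
  have hAR : A ≤ A ⊔ B ⊔ C := le_sup_left.trans le_sup_left
  have hBR : B ≤ A ⊔ B ⊔ C := le_sup_right.trans le_sup_left
  have hCR : C ≤ A ⊔ B ⊔ C := le_sup_right
  apply le_antisymm
  · refine sup_le (sup_le (sup_le hAR ?_) (sup_le ?_ hCR)) hBR
    · exact conjBy_le_of_mem hCR hbR
    · exact conjBy_le_of_mem hAR hbR
  · refine sup_le (sup_le ?_ le_sup_right) ?_
    · exact le_sup_left.trans (le_sup_left.trans le_sup_left)
    · exact le_sup_right.trans (le_sup_right.trans le_sup_left)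

theorem claim1 (hS : IsRootSubgroupSet S) {A B C : Subgroup G} (hA : A ∈ S) (hC : C ∈ S)
    (hAB : RootCommutatorCase S A B) (hCB : RootCommutatorCase S C B)
    (hAC : ∀ a ∈ A, ∀ c ∈ C, a * c = c * a) {b : G} (hb : b ∈ B) (hb1 : b ≠ 1) :
    (IsMulCommutative ↥(A ⊔ conjBy C b) ∧ IsMulCommutative ↥(conjBy A b ⊔ C)) ∨
      ((¬ IsMulCommutative ↥(A ⊔ conjBy C b) ∧
          ⁅⁅A ⊔ conjBy C b, A ⊔ conjBy C b⁆, A ⊔ conjBy C b⁆ = ⊥) ∧
        (¬ IsMulCommutative ↥(conjBy A b ⊔ C) ∧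
          ⁅⁅conjBy A b ⊔ C, conjBy A b ⊔ C⁆, conjBy A b ⊔ C⁆ = ⊥)) := by
  have hCA : ∀ c ∈ C, ∀ a ∈ A, c * a = a * c := fun c hc a ha => (hAC a ha c hc).symm
  have hA₁ : conjBy A b ∈ S := hS.conj_mem A hA b
  have hC₁ : conjBy C b ∈ S := hS.conj_mem C hC b
  have hnY : ¬ IsRankOnePair (conjBy A b) C := not_rankOne_conjBy hS hA hC hAB hAC hb
  have hnX : ¬ IsRankOnePair A (conjBy C b) :=
    fun h => not_rankOne_conjBy hS hC hA hCB hCA hb (RankOnePair_symm h)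
  have hX2 := class_two_of_not_rankOne hS hA hC₁ hnX
  have hY2 := class_two_of_not_rankOne hS hA₁ hC hnY
  have e1 : (∀ x ∈ A, ∀ y ∈ conjBy C b, x * y = y * x) ↔
      (∀ x ∈ A, ∀ d ∈ ⁅C, B⁆, x * d = d * x) := comm_conjBy_iff hCB hCA hb hb1
  have e2 : (∀ x ∈ C, ∀ y ∈ conjBy A b, x * y = y * x) ↔
      (∀ x ∈ C, ∀ d ∈ ⁅A, B⁆, x * d = d * x) := comm_conjBy_iff hAB hAC hb hb1
  have e3 : (∀ x ∈ A, ∀ d ∈ ⁅C, B⁆, x * d = d * x) → (∀ x ∈ C, ∀ d ∈ ⁅A, B⁆, x * d = d * x) :=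
    three_subgroups hAC
  have e4 : (∀ x ∈ C, ∀ d ∈ ⁅A, B⁆, x * d = d * x) → (∀ x ∈ A, ∀ d ∈ ⁅C, B⁆, x * d = d * x) :=
    three_subgroups hCA
  by_cases hX : ∀ x ∈ A, ∀ y ∈ conjBy C b, x * y = y * x
  · left
    have hY : ∀ x ∈ C, ∀ y ∈ conjBy A b, x * y = y * x := e2.mpr (e3 (e1.mp hX))
    exact ⟨isMulCommutative_of_comm
        (comm_sup_sup (hS.commutative A hA) (hS.commutative _ hC₁) hX),
      isMulCommutative_of_comm (comm_sup_sup (hS.commutative _ hA₁) (hS.commutative C hC)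
        (fun x hx y hy => (hY y hy x hx).symm))⟩
  · right
    refine ⟨⟨?_, hX2⟩, ⟨?_, hY2⟩⟩
    · intro hcomm
      exact hX (fun x hx y hy => comm_of_isMulCommutative hcomm (Subgroup.mem_sup_left hx)
        (Subgroup.mem_sup_right hy))
    · intro hcomm
      apply hX
      apply e1.mpr
      apply e4
      apply e2.mp
      intro x hx y hy
      exact (comm_of_isMulCommutative hcomm (Subgroup.mem_sup_left hy)
        (Subgroup.mem_sup_right hx)).symm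

theorem nilpotent_R (hS : IsRootSubgroupSet S) {A B C : Subgroup G} (hA : A ∈ S) (hB : B ∈ S)
    (hC : C ∈ S) (hAB : RootCommutatorCase S A B) (hCB : RootCommutatorCase S C B)
    (hAC : ∀ a ∈ A, ∀ c ∈ C, a * c = c * a) {b : G} (hb : b ∈ B) (hb1 : b ≠ 1) :
    Group.IsNilpotent ↥(A ⊔ B ⊔ C) := by
  have hCA : ∀ c ∈ C, ∀ a ∈ A, c * a = a * c := fun c hc a ha => (hAC a ha c hc).symm
  have hA₁ : conjBy A b ∈ S := hS.conj_mem A hA b
  have hC₁ : conjBy C b ∈ S := hS.conj_mem C hC b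
  have hnY : ¬ IsRankOnePair (conjBy A b) C := not_rankOne_conjBy hS hA hC hAB hAC hb
  have hnX : ¬ IsRankOnePair A (conjBy C b) :=
    fun h => not_rankOne_conjBy hS hC hA hCB hCA hb (RankOnePair_symm h)
  have hXX := commutator_sup_le_of_not_rankOne hS hA hC₁ hnX
  have hYY := commutator_sup_le_of_not_rankOne hS hA₁ hC hnY
  have hX'c := central_of_not_rankOne hS hA hC₁ hnX
  have hY'c := central_of_not_rankOne hS hA₁ hC hnY
  have hX'S := bot_or_mem_of_not_rankOne hS hA hC₁ hnX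
  have hY'S := bot_or_mem_of_not_rankOne hS hA₁ hC hnY
  have hXY := comm_XY hS hA hC hAB hCB hAC hb
  have hPeq := sup_XY_eq hAB hCB hb hb1
  have hPB := sup_B_eq (A := A) (C := C) hb
  have hRNP := le_normalizer_P (B := B) hAC
  rw [← hPeq] at hRNP
  have hX'X : ⁅A, conjBy C b⁆ ≤ A ⊔ conjBy C b := commutator_le_sup _ _
  have hY'Y : ⁅conjBy A b, C⁆ ≤ conjBy A b ⊔ C := commutator_le_sup _ _
  generalize hX0 : A ⊔ conjBy C b = X at *
  generalize hY0 : conjBy A b ⊔ C = Y at *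
  generalize hX'0 : ⁅A, conjBy C b⁆ = X' at *
  generalize hY'0 : ⁅conjBy A b, C⁆ = Y' at *
  generalize hD0 : ⁅A, B⁆ = D at *
  generalize hF0 : ⁅C, B⁆ = F at *
  generalize hR0 : A ⊔ B ⊔ C = R at *
  have hX : X = A ⊔ conjBy C b := hX0.symm
  have hY : Y = conjBy A b ⊔ C := hY0.symm
  have hX' : X' = ⁅A, conjBy C b⁆ := hX'0.symm
  have hY' : Y' = ⁅conjBy A b, C⁆ := hY'0.symm
  have hD : D = ⁅A, B⁆ := hD0.symm
  have hF : F = ⁅C, B⁆ := hF0.symm
  have hBD : ⁅D, B⁆ = ⊥ := by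
    rw [hD]
    exact commutator_eq_bot_of_comm (fun d hd x hx => hAB.2.1 d hd x (Subgroup.mem_sup_right hx))
  have hBF : ⁅F, B⁆ = ⊥ := by
    rw [hF]
    exact commutator_eq_bot_of_comm (fun d hd x hx => hCB.2.1 d hd x (Subgroup.mem_sup_right hx))
  have hBND : B ≤ Subgroup.normalizer (D : Set G) := by
    rw [hD]; exact le_normalizer_of_conjBy (fun x hx => conjBy_commutator_right hx)
  have hBNF : B ≤ Subgroup.normalizer (F : Set G) := by
    rw [hF]; exact le_normalizer_of_conjBy (fun x hx => conjBy_commutator_right hx)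
  have hBB : ⁅B, B⁆ = ⊥ :=
    commutator_eq_bot_of_comm (fun x hx y hy => comm_of_isMulCommutative (hS.commutative B hB) hx hy)
  generalize hP0 : X ⊔ Y = P at *
  have hP : P = X ⊔ Y := hP0.symm
  have hXP : X ≤ P := by rw [hP]; exact le_sup_left
  have hYP : Y ≤ P := by rw [hP]; exact le_sup_right
  have hAP : A ≤ P := by rw [hPeq]; exact le_sup_left.trans le_sup_left
  have hDP : D ≤ P := by rw [hPeq]; exact le_sup_right.trans le_sup_left
  have hCP : C ≤ P := by rw [hPeq]; exact le_sup_left.trans le_sup_right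
  have hFP : F ≤ P := by rw [hPeq]; exact le_sup_right.trans le_sup_right
  have hA₁P : conjBy A b ≤ P := by rw [hP, hY]; exact le_sup_left.trans le_sup_right
  have hC₁P : conjBy C b ≤ P := by rw [hP, hX]; exact le_sup_right.trans le_sup_left
  have hPR : P ≤ R := by rw [← hPB]; exact le_sup_left
  have hBR : B ≤ R := by rw [← hPB]; exact le_sup_right
  obtain ⟨Zc, hZ⟩ : ∃ Zc, Zc = X' ⊔ Y' := ⟨_, rfl⟩
  have hX'Z : X' ≤ Zc := by rw [hZ]; exact le_sup_left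
  have hY'Z : Y' ≤ Zc := by rw [hZ]; exact le_sup_right
  have hZc : ∀ z ∈ Zc, ∀ p ∈ P, z * p = p * z := by
    rw [hZ, hP]
    apply comm_sup_left
    · exact comm_sup_right hX'c (fun z hz y hy => hXY z (hX'X hz) y hy)
    · exact comm_sup_right (fun z hz x hx => (hXY x hx z (hY'Y hz)).symm) hY'c
  have hZP : Zc ≤ P := by
    rw [hZ]; exact sup_le (hX'X.trans hXP) (hY'Y.trans hYP)
  have hPNZ : P ≤ Subgroup.normalizer (Zc : Set G) :=
    le_normalizer_of_comm (fun x hx k hk => (hZc k hk x hx).symm)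
  have hXYbot : ⁅X, Y⁆ = ⊥ := commutator_eq_bot_of_comm hXY
  have hYXbot : ⁅Y, X⁆ = ⊥ := by rw [Subgroup.commutator_comm]; exact hXYbot
  have hPP : ⁅P, P⁆ ≤ Zc := by
    have hN : X ⊔ Y ≤ Subgroup.normalizer (Zc : Set G) := by rw [← hP]; exact hPNZ
    rw [hP]
    apply sup_commutator_le hN
    · apply commutator_sup_le hN (hXX.trans hX'Z)
      rw [hXYbot]; exact bot_le
    · apply commutator_sup_le hN _ (hYY.trans hY'Z)
      rw [hYXbot]; exact bot_le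
  have hZeq : Zc = ⁅P, P⁆ := by
    apply le_antisymm _ hPP
    rw [hZ, hX', hY']
    exact sup_le (Subgroup.commutator_mono hAP hC₁P) (Subgroup.commutator_mono hA₁P hCP)
  have hRNZ : R ≤ Subgroup.normalizer (Zc : Set G) := by
    apply le_normalizer_of_conjBy
    intro r hr
    rw [hZeq, conjBy_commutator, mem_normalizer_iff_conjBy.mp (hRNP hr)]
  have hZab : ∀ x ∈ Zc, ∀ y ∈ Zc, x * y = y * x := fun x hx y hy => hZc x hx y (hZP hy)
  obtain ⟨H2, hH2⟩ : ∃ H2, H2 = D ⊔ F ⊔ Zc := ⟨_, rfl⟩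
  have hH2P : H2 ≤ P := by rw [hH2]; exact sup_le (sup_le hDP hFP) hZP
  have hZH2 : Zc ≤ H2 := by rw [hH2]; exact le_sup_right
  have hRNH2 : R ≤ Subgroup.normalizer (H2 : Set G) := by
    rw [← hPB]
    apply sup_le
    · apply le_normalizer_of_commutator_le
      exact (Subgroup.commutator_mono le_rfl hH2P).trans (hPP.trans hZH2)
    · rw [hH2]
      exact le_normalizer_sup (le_normalizer_sup hBND hBNF) (hBR.trans hRNZ)
  obtain ⟨W, hW⟩ : ∃ W, W = ⁅X', B⁆ ⊔ ⁅Y', B⁆ := ⟨_, rfl⟩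
  have hW₁Z : ⁅X', B⁆ ≤ Zc := commutator_le_of_le_normalizer hX'Z (hBR.trans hRNZ)
  have hW₂Z : ⁅Y', B⁆ ≤ Zc := commutator_le_of_le_normalizer hY'Z (hBR.trans hRNZ)
  have hWZ : W ≤ Zc := by rw [hW]; exact sup_le hW₁Z hW₂Z
  have hRNW : R ≤ Subgroup.normalizer (W : Set G) := by
    rw [← hPB]
    apply sup_le
    · exact le_normalizer_of_comm (fun x hx k hk => (hZc k (hWZ hk) x hx).symm)
    · rw [hW]
      exact le_normalizer_sup (le_normalizer_of_conjBy (fun x hx => conjBy_commutator_right hx))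
        (le_normalizer_of_conjBy (fun x hx => conjBy_commutator_right hx))
  have hW₁B : ⁅⁅X', B⁆, B⁆ = ⊥ :=
    comm_comm_eq_bot hS hB hX'S hX'Z hZab (hBR.trans hRNZ)
  have hW₂B : ⁅⁅Y', B⁆, B⁆ = ⊥ :=
    comm_comm_eq_bot hS hB hY'S hY'Z hZab (hBR.trans hRNZ)
  have s0 : ⁅R, R⁆ ≤ P := by
    have hN : P ⊔ B ≤ Subgroup.normalizer (P : Set G) := by rw [hPB]; exact hRNP
    rw [← hPB]
    apply sup_commutator_le hN
    · exact commutator_le_of_le_normalizer le_rfl hN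
    · apply commutator_sup_le hN
      · rw [Subgroup.commutator_comm]
        exact commutator_le_of_le_normalizer le_rfl (hBR.trans hRNP)
      · rw [hBB]; exact bot_le
  have s1 : ⁅P, R⁆ ≤ H2 := by
    have hN : P ⊔ B ≤ Subgroup.normalizer (H2 : Set G) := by rw [hPB]; exact hRNH2
    rw [← hPB]
    apply commutator_sup_le hN (hPP.trans hZH2)
    have hN' : (A ⊔ D) ⊔ (C ⊔ F) ≤ Subgroup.normalizer (H2 : Set G) := by
      rw [← hPeq]; exact hPR.trans hRNH2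
    rw [hPeq]
    apply sup_commutator_le hN'
    · apply sup_commutator_le (le_sup_left.trans hN')
      · rw [hH2, ← hD]; exact le_sup_left.trans le_sup_left
      · rw [hBD]; exact bot_le
    · apply sup_commutator_le (le_sup_right.trans hN')
      · rw [hH2, ← hF]; exact le_sup_right.trans le_sup_left
      · rw [hBF]; exact bot_le
  have s2 : ⁅H2, R⁆ ≤ Zc := by
    have hN : P ⊔ B ≤ Subgroup.normalizer (Zc : Set G) := by rw [hPB]; exact hRNZ
    rw [← hPB]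
    apply commutator_sup_le hN ((Subgroup.commutator_mono hH2P le_rfl).trans hPP)
    have hN' : D ⊔ F ⊔ Zc ≤ Subgroup.normalizer (Zc : Set G) := by
      rw [← hH2]; exact hH2P.trans hPNZ
    rw [hH2]
    apply sup_commutator_le hN'
    · apply sup_commutator_le (le_sup_left.trans hN')
      · rw [hBD]; exact bot_le
      · rw [hBF]; exact bot_le
    · exact commutator_le_of_le_normalizer le_rfl (hBR.trans hRNZ)
  have s3 : ⁅Zc, R⁆ ≤ W := by
    have hN : P ⊔ B ≤ Subgroup.normalizer (W : Set G) := by rw [hPB]; exact hRNW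
    rw [← hPB]
    apply commutator_sup_le hN
    · rw [commutator_eq_bot_of_comm hZc]; exact bot_le
    · have hN' : X' ⊔ Y' ≤ Subgroup.normalizer (W : Set G) := by
        rw [← hZ]; exact (hZP.trans hPR).trans hRNW
      rw [hZ]
      apply sup_commutator_le hN'
      · rw [hW]; exact le_sup_left
      · rw [hW]; exact le_sup_right
  have s4 : ⁅W, R⁆ ≤ ⊥ := by
    rw [← hPB]
    apply commutator_sup_le (le_normalizer_bot _)
    · rw [commutator_eq_bot_of_comm (fun z hz p hp => hZc z (hWZ hz) p hp)]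
    · rw [hW]
      apply sup_commutator_le (le_normalizer_bot _)
      · rw [hW₁B]
      · rw [hW₂B]
  exact isNilpotent_of_chain5 s0 s1 s2 s3 s4

end Cfsg.Agent.Lib.Helper25.Chain
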