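import Mathlib
import Cfsg.Prelude.Def_RootSubgroups
import Cfsg.Agent.Lib.Helper25.Line

set_option autoImplicit false

namespace Cfsg.Agent.Lib.Helper25.Graph

open Cfsg Cfsg.Agent.Lib.Helper25.RankOne Cfsg.Agent.Lib.Helper25.RootSet
  Cfsg.Agent.Lib.Helper25.CommCase Cfsg.Agent.Lib.Helper25.Line

variable {G : Type*} [Group G] {S : Set (Subgroup G)}

theorem fadj_symm {A B : Subgroup G} (h : FAdj S A B) : FAdj S B A :=
  ⟨h.2.1, h.1, RankOnePair_symm h.2.2⟩

theorem reach_symm {A B : Subgroup G} (h : Relation.ReflTransGen (FAdj S) A B) :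
    Relation.ReflTransGen (FAdj S) B A := by
  induction h with
  | refl => exact Relation.ReflTransGen.refl
  | tail _ hbc ih => exact Relation.ReflTransGen.head (fadj_symm hbc) ih

theorem componentOf_eq_of_reach {A B : Subgroup G}
    (h : Relation.ReflTransGen (FAdj S) A B) :
    componentOf (FAdj S) S A = componentOf (FAdj S) S B := by
  ext D
  constructor
  · rintro ⟨hD, hAD⟩
    exact ⟨hD, (reach_symm h).trans hAD⟩
  · rintro ⟨hD, hBD⟩
    exact ⟨hD, h.trans hBD⟩

theorem reach_of_componentOf_eq {A B : Subgroup G} (hB : B ∈ S)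
    (h : componentOf (FAdj S) S A = componentOf (FAdj S) S B) :
    Relation.ReflTransGen (FAdj S) A B := by
  have : B ∈ componentOf (FAdj S) S B := ⟨hB, Relation.ReflTransGen.refl⟩
  rw [← h] at this
  exact this.2

theorem fadj_conjBy (hS : IsRootSubgroupSet S) (g : G) {A B : Subgroup G} (h : FAdj S A B) :
    FAdj S (conjBy A g) (conjBy B g) :=
  ⟨hS.conj_mem A h.1 g, hS.conj_mem B h.2.1 g, isRankOnePair_conjBy g h.2.2⟩

theorem exists_fadj_of_component {A : Subgroup G}
    (h : ∃ A' ∈ componentOf (FAdj S) S A, A' ≠ A) : ∃ A₁, FAdj S A A₁ := by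
  obtain ⟨A', ⟨-, hr⟩, hne⟩ := h
  rcases Relation.ReflTransGen.cases_head hr with h1 | ⟨A₁, h1, -⟩
  · exact absurd h1.symm hne
  · exact ⟨A₁, h1⟩

theorem component_nontrivial_of_pair {A A' : Subgroup G} (hA : A ∈ S) (hA' : A' ∈ S)
    (hp : IsRankOnePair A A') : ∃ D ∈ componentOf (FAdj S) S A, D ≠ A :=
  ⟨A', ⟨hA', Relation.ReflTransGen.single ⟨hA, hA', hp⟩⟩, hp.ne.symm⟩

/-- Lemma Q: if `(A, A')` is a rank one pair, `b` commutes with `A`, and `A'` commutes with its
conjugate under `b`, then for nonidentity `a ∈ A` the subgroup `A'` does not commute with its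
conjugate under `a * b`. -/
theorem not_comm_conjBy_mul {A A' : Subgroup G} (hp : IsRankOnePair A A') {a b : G} (ha : a ∈ A)
    (ha1 : a ≠ 1) (hbA : ∀ x ∈ A, b * x = x * b)
    (hb : ∀ x ∈ A', ∀ y ∈ conjBy A' b, x * y = y * x) :
    ¬ ∀ x ∈ A', ∀ y ∈ conjBy A' (a * b), x * y = y * x := by
  intro hQ
  have hAb : conjBy A b = A := conjBy_eq_of_commute hbA
  have hp' : IsRankOnePair A (conjBy A' b) := by
    have := isRankOnePair_conjBy b hp
    rwa [hAb] at this
  have h1 : conjBy A' b ∈ unipotentSubgroups A (conjBy A' b) := right_mem_unipotentSubgroups hp'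
  have h2 : conjBy (conjBy A' b) a ∈ unipotentSubgroups A (conjBy A' b) :=
    conjBy_mem_unipotentSubgroups h1 (Subgroup.mem_sup_left ha)
  have hne : conjBy A' b ≠ conjBy (conjBy A' b) a := by
    intro he
    exact ha1 (eq_one_of_mem_of_conjBy_eq hp' ha he.symm)
  have hsup := sup_eq_of_mem_of_mem hp' h1 h2 hne
  rw [conjBy_conjBy] at hsup
  have hall : ∀ x ∈ A', ∀ y ∈ A ⊔ conjBy A' b, x * y = y * x := by
    rw [← hsup]
    exact comm_sup_right hb hQ
  obtain ⟨a', ha', ha'1⟩ := exists_ne_one_right hp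
  apply ha'1
  exact not_commute_of_pair hp ha ha1 ha' (hall a' ha' a (Subgroup.mem_sup_left ha)).symm

/-- key step for the line partner theorem -/
theorem rankOne_of_mul_mem (hS : IsRootSubgroupSet S) {A A' B E : Subgroup G} (hA : A ∈ S)
    (hA' : A' ∈ S) (hp : IsRankOnePair A A') (hB : B ∈ S) (hcomm : ⁅A, B⁆ = ⊥)
    (hn : ¬ IsRankOnePair B A') (hE : E ∈ S) {a b : G} (ha : a ∈ A) (ha1 : a ≠ 1) (hb : b ∈ B)
    (hb1 : b ≠ 1) (habE : a * b ∈ E) (hab1 : a * b ≠ 1) : IsRankOnePair E A' := by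
  have hab : a * b = b * a := comm_of_commutator_eq_bot hcomm ha hb
  have hbA : ∀ x ∈ A, b * x = x * b := fun x hx => (comm_of_commutator_eq_bot hcomm hx hb).symm
  rcases hS.pair B hB A' hA' with hc | hr | hcc
  · exfalso
    have hz : ∀ x ∈ A ⊔ A', b * x = x * b :=
      comm_sup_elem hbA (fun y hy => comm_of_commutator_eq_bot hc hb hy)
    apply central_mul_not_root hS hA hA' hp hz hb1 ha ha1
    refine ⟨?_, E, hE, ?_⟩
    · rw [← hab]; exact hab1
    · rw [← hab]; exact habE
  · exact absurd hr hn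
  · have hb' := commCase_conjBy_comm (hS.commutative A' hA') hcc hb
    have hQ := not_comm_conjBy_mul hp ha ha1 hbA hb'
    rcases hS.pair E hE A' hA' with hc' | hr' | hcc'
    · exfalso
      apply hQ
      have h1 : conjBy A' (a * b) = A' :=
        conjBy_eq_of_commute (fun c hc => comm_of_commutator_eq_bot hc' habE hc)
      rw [h1]
      intro x hx y hy
      exact comm_of_isMulCommutative (hS.commutative A' hA') hx hy
    · exact hr'
    · exfalso
      exact hQ (commCase_conjBy_comm (hS.commutative A' hA') hcc' habE)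

end Cfsg.Agent.Lib.Helper25.Graph
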