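import Mathlib

set_option autoImplicit false
set_option linter.unusedSectionVars false
set_option linter.unusedVariables false

/-!
# Counting commuting pairs in cosets of a coprime abelian normal subgroup

* `card_sol` : abstract count of solutions of `(1 - t) a = (1 - s) b` in a module over a
  commutative ring, when `1 - s` admits a "Fitting decomposition" (`e`, `q`);
* `card_sol_end` : the same for commuting endomorphisms `s₀, t₀` of a finite abelian group, with
  `s₀` of order prime to the group order;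
* `card_twisted_pairs` : for an abelian normal subgroup `V` and commuting `g, h` with the order of
  `g` prime to `|V|`, the number of `(a, b) ∈ V × V` with `a * g b g⁻¹ = b * h a h⁻¹` is
  `|C_V(g, h)| * |V|`.
-/

namespace Cfsg.Agent.Lib.Helper25.KGV2

universe u

theorem card_sol {C : Type*} [CommRing C] {A : Type*} [AddCommGroup A] [Module C A] [Finite A]
    (s t e q : C) (h1 : (1 - s) * e = 0) (h2 : (1 - s) * q = 1 - e) (h3 : e * q = 0) :
    Nat.card {p : A × A // (1 - t) • p.1 = (1 - s) • p.2} =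
      Nat.card {c : A // s • c = c ∧ t • c = c} * Nat.card A := by
  have he : e * e = e := by linear_combination (-q) * h1 + e * h2
  have P1 : ∀ x : A, ((1 - s) * e) • x = 0 := fun x => by rw [h1, zero_smul]
  have P2 : ∀ x : A, ((1 - s) * q) • x = (1 - e) • x := fun x => by rw [h2]
  have P3 : ∀ x : A, (e * q) • x = 0 := fun x => by rw [h3, zero_smul]
  have P4 : ∀ x : A, (e * e) • x = e • x := fun x => by rw [he]
  rw [← Nat.card_prod]
  apply Nat.card_congr
  refine
    { toFun := fun p => (⟨e • p.1.1, ?_, ?_⟩, (1 - e) • p.1.1 + e • p.1.2)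
      invFun := fun cv => ⟨(cv.1.1 + (1 - e) • cv.2,
        e • cv.2 + q • ((1 - t) • (cv.1.1 + (1 - e) • cv.2))), ?_⟩
      left_inv := ?_
      right_inv := ?_ }
  · linear_combination (norm := module) -(P1 p.1.1)
  · have hp := p.2
    linear_combination (norm := module) (-e) • hp - P1 p.1.2
  · obtain ⟨⟨c, hc1, hc2⟩, v⟩ := cv
    simp only
    linear_combination (norm := module) (-1 : C) • P2 ((1 - t) • c) - P2 ((1 - t) • ((1 - e) • v))
      - P1 v - (1 - t) • P4 v - e • hc2
  · rintro ⟨⟨a, b⟩, hp⟩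
    simp only at hp
    apply Subtype.ext
    apply Prod.ext
    · simp only
      linear_combination (norm := module) P4 a - P4 b
    · simp only
      linear_combination (norm := module) -(P4 a) + P4 b + q • hp + P2 b + (q * (1 - t)) • P4 a
        - (q * (1 - t)) • P4 b
  · rintro ⟨⟨c, hc1, hc2⟩, v⟩
    apply Prod.ext
    · apply Subtype.ext
      simp only
      linear_combination (norm := module) P2 c + q • hc1 - P4 v
    · simp only
      linear_combination (norm := module) -(P2 c) - q • hc1 + (2 : C) • P4 v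
        + P3 ((1 - t) • (c + (1 - e) • v))

open scoped IsMulCommutative in
theorem card_sol_end {A : Type*} [AddCommGroup A] [Finite A] (s₀ t₀ : AddMonoid.End A)
    (hst : s₀ * t₀ = t₀ * s₀) (m : ℕ) (hm : s₀ ^ m = 1) (hcop : m.Coprime (Nat.card A)) :
    Nat.card {p : A × A // p.1 - t₀ p.1 = p.2 - s₀ p.2} =
      Nat.card {c : A // s₀ c = c ∧ t₀ c = c} * Nat.card A := by
  obtain ⟨C, hC⟩ : ∃ C : Subring (AddMonoid.End A), C = Subring.closure {s₀, t₀} := ⟨_, rfl⟩
  have hcomm : ∀ x ∈ ({s₀, t₀} : Set (AddMonoid.End A)),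
      ∀ y ∈ ({s₀, t₀} : Set (AddMonoid.End A)), x * y = y * x := by
    intro x hx y hy
    simp only [Set.mem_insert_iff, Set.mem_singleton_iff] at hx hy
    rcases hx with rfl | rfl <;> rcases hy with rfl | rfl
    · rfl
    · exact hst
    · exact hst.symm
    · rfl
  have hCc : IsMulCommutative C := by
    rw [hC]; exact Subring.isMulCommutative_closure hcomm
  have hs : s₀ ∈ C := by rw [hC]; exact Subring.subset_closure (by simp)
  have ht : t₀ ∈ C := by rw [hC]; exact Subring.subset_closure (by simp)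
  obtain ⟨s, hs'⟩ : ∃ s : C, (s : AddMonoid.End A) = s₀ := ⟨⟨s₀, hs⟩, rfl⟩
  obtain ⟨t, ht'⟩ : ∃ t : C, (t : AddMonoid.End A) = t₀ := ⟨⟨t₀, ht⟩, rfl⟩
  have hsm : s ^ m = 1 := by
    apply Subtype.ext
    rw [Subring.coe_pow, hs', hm]
    rfl
  have hcard0 : ((Nat.card A : ℕ) : C) = 0 := by
    apply Subtype.ext
    rw [Subring.coe_natCast]
    ext x
    simp [card_nsmul_eq_zero']
  obtain ⟨u, hu⟩ : ∃ u : C, u * (m : C) = 1 := by
    have hb := Nat.gcd_eq_gcd_ab m (Nat.card A)
    rw [Nat.Coprime] at hcop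
    rw [hcop] at hb
    refine ⟨((Nat.gcdA m (Nat.card A) : ℤ) : C), ?_⟩
    have h := congrArg (fun z : ℤ => (z : C)) hb
    push_cast at h
    rw [hcard0] at h
    linear_combination -h
  obtain ⟨N, hNdef⟩ : ∃ N : C, N = ∑ i ∈ Finset.range m, s ^ i := ⟨_, rfl⟩
  have hN : (1 - s) * N = 0 := by
    rw [hNdef, mul_neg_geom_sum, hsm, sub_self]
  have hsN1 : s * N = N := by linear_combination -hN
  have hsN : ∀ i : ℕ, s ^ i * N = N := by
    intro i
    induction i with
    | zero => simp
    | succ i ih => rw [pow_succ, mul_assoc, hsN1, ih]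
  have hNN : N * N = (m : C) * N := by
    have : N * N = (∑ i ∈ Finset.range m, s ^ i) * N := by rw [← hNdef]
    rw [this, Finset.sum_mul, Finset.sum_congr rfl (fun i _ => hsN i), Finset.sum_const,
      Finset.card_range, nsmul_eq_mul]
  obtain ⟨e, hedef⟩ : ∃ e : C, e = u * N := ⟨_, rfl⟩
  have h1 : (1 - s) * e = 0 := by
    rw [hedef]; linear_combination u * hN
  have he : e * e = e := by
    rw [hedef]; linear_combination (u * u) * hNN + (u * N) * hu
  obtain ⟨Q, hQdef⟩ : ∃ Q : C, Q = ∑ i ∈ Finset.range m, ∑ j ∈ Finset.range i, s ^ j := ⟨_, rfl⟩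
  have hQ : (1 - s) * Q = (m : C) - N := by
    rw [hQdef, Finset.mul_sum]
    simp only [mul_neg_geom_sum]
    rw [Finset.sum_sub_distrib, ← hNdef, Finset.sum_const, Finset.card_range, nsmul_eq_mul, mul_one]
  obtain ⟨q, hqdef⟩ : ∃ q : C, q = (1 - e) * u * Q := ⟨_, rfl⟩
  have h2 : (1 - s) * q = 1 - e := by
    have hue : u * N = e := hedef.symm
    rw [hqdef]
    linear_combination ((1 - e) * u) * hQ + (1 - e) * hu + he - (1 - e) * hue
  have h3 : e * q = 0 := by
    rw [hqdef]; linear_combination (-(u * Q)) * he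
  have key := card_sol (A := A) s t e q h1 h2 h3
  have hsx : ∀ x : A, s • x = s₀ x := by
    intro x
    rw [← hs']
    rfl
  have htx : ∀ x : A, t • x = t₀ x := by
    intro x
    rw [← ht']
    rfl
  have e1 : Nat.card {p : A × A // p.1 - t₀ p.1 = p.2 - s₀ p.2} =
      Nat.card {p : A × A // (1 - t) • p.1 = (1 - s) • p.2} := by
    apply Nat.card_congr
    apply Equiv.subtypeEquivRight
    intro p
    rw [sub_smul, sub_smul, one_smul, one_smul, hsx, htx]
  have e2 : Nat.card {c : A // s₀ c = c ∧ t₀ c = c} =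
      Nat.card {c : A // s • c = c ∧ t • c = c} := by
    apply Nat.card_congr
    apply Equiv.subtypeEquivRight
    intro c
    rw [hsx, htx]
  rw [e1, e2, key]

/-- Commuting pairs in two cosets of an abelian normal subgroup. -/
theorem card_twisted_pairs {X : Type u} [Group X] [Finite X] (V : Subgroup X) [hV : V.Normal]
    (hab : ∀ a ∈ V, ∀ b ∈ V, a * b = b * a) (g h : X) (hgh : g * h = h * g)
    (hcop : (orderOf g).Coprime (Nat.card V)) :
    Nat.card {p : V × V // (p.1 : X) * (g * (p.2 : X) * g⁻¹) = (p.2 : X) * (h * (p.1 : X) * h⁻¹)} =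
      Nat.card {v : V // g * (v : X) * g⁻¹ = (v : X) ∧ h * (v : X) * h⁻¹ = (v : X)} *
        Nat.card V := by
  classical
  let instV : CommGroup V :=
    { (inferInstance : Group V) with mul_comm := fun a b => Subtype.ext (hab a a.2 b b.2) }
  obtain ⟨s₀, hs₀⟩ : ∃ s₀ : AddMonoid.End (Additive V), ∀ x : Additive V,
      s₀ x = Additive.ofMul (MulAut.conjNormal g (Additive.toMul x)) :=
    ⟨MonoidHom.toAdditive (MulAut.conjNormal g : V ≃* V).toMonoidHom, fun x => rfl⟩
  obtain ⟨t₀, ht₀⟩ : ∃ t₀ : AddMonoid.End (Additive V), ∀ x : Additive V,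
      t₀ x = Additive.ofMul (MulAut.conjNormal h (Additive.toMul x)) :=
    ⟨MonoidHom.toAdditive (MulAut.conjNormal h : V ≃* V).toMonoidHom, fun x => rfl⟩
  have hst : s₀ * t₀ = t₀ * s₀ := by
    ext x
    rw [AddMonoid.End.coe_mul, AddMonoid.End.coe_mul, Function.comp_apply, Function.comp_apply,
      hs₀, ht₀, hs₀, ht₀]
    simp only [toMul_ofMul]
    rw [← MulAut.mul_apply, ← MulAut.mul_apply, ← map_mul, ← map_mul, hgh]
  have hpow : ∀ (i : ℕ) (x : Additive V),
      (s₀ ^ i) x = Additive.ofMul (MulAut.conjNormal (g ^ i) (Additive.toMul x)) := by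
    intro i
    induction i with
    | zero =>
      intro x
      simp
    | succ i ih =>
      intro x
      rw [pow_succ, AddMonoid.End.coe_mul, Function.comp_apply, ih, hs₀]
      simp only [toMul_ofMul]
      rw [← MulAut.mul_apply, ← map_mul, ← pow_succ]
  have hm : s₀ ^ (orderOf g) = 1 := by
    ext x
    rw [hpow, pow_orderOf_eq_one]
    simp
  have hcop' : (orderOf g).Coprime (Nat.card (Additive V)) := hcop
  have key := card_sol_end s₀ t₀ hst (orderOf g) hm hcop'
  have e1 : Nat.card {p : V × V // (p.1 : X) * (g * (p.2 : X) * g⁻¹) =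
        (p.2 : X) * (h * (p.1 : X) * h⁻¹)} =
      Nat.card {p : Additive V × Additive V // p.1 - t₀ p.1 = p.2 - s₀ p.2} := by
    apply Nat.card_congr
    apply Equiv.subtypeEquiv (Equiv.prodCongr Additive.ofMul Additive.ofMul)
    rintro ⟨a, b⟩
    simp only [Equiv.prodCongr_apply, Prod.map_apply]
    rw [hs₀, ht₀]
    simp only [toMul_ofMul]
    rw [← ofMul_div, ← ofMul_div, Additive.ofMul.injective.eq_iff, div_eq_div_iff_mul_eq_mul,
      Subtype.ext_iff]
    simp only [Subgroup.coe_mul, MulAut.conjNormal_apply]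
  have e2 : Nat.card {v : V // g * (v : X) * g⁻¹ = (v : X) ∧ h * (v : X) * h⁻¹ = (v : X)} =
      Nat.card {c : Additive V // s₀ c = c ∧ t₀ c = c} := by
    apply Nat.card_congr
    apply Equiv.subtypeEquiv Additive.ofMul
    intro v
    rw [hs₀, ht₀]
    simp only [toMul_ofMul]
    rw [Additive.ofMul.injective.eq_iff, Additive.ofMul.injective.eq_iff, Subtype.ext_iff,
      Subtype.ext_iff]
    simp only [MulAut.conjNormal_apply]
  rw [e1, e2, key]
  rfl

end Cfsg.Agent.Lib.Helper25.KGV2
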