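import Mathlib
import Cfsg.Prelude.Def_RootSubgroups
import Cfsg.Agent.Lib.Helper25.RankOne

set_option autoImplicit false

namespace Cfsg.Agent.Lib.Helper25.Quad

open Cfsg Cfsg.Agent.Lib.Helper25.RankOne

variable {X : Type*} [Group X] {V : Type*} [AddCommGroup V] [DistribMulAction X V]

theorem d_mul (x y : X) (v : V) : (x * y) • v - v = x • (y • v - v) + (x • v - v) := by
  rw [mul_smul, smul_sub]; abel

theorem d_inv (x : X) (v : V) : x⁻¹ • v - v = -(x • (x⁻¹ • v) - x⁻¹ • v) := by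
  rw [smul_inv_smul]; abel

theorem d_conj (x y : X) (v : V) :
    (x * y * x⁻¹) • v - v = x • (y • (x⁻¹ • v) - x⁻¹ • v) := by
  rw [smul_sub, mul_smul, mul_smul, smul_inv_smul]

theorem d_conj' (x y : X) (v : V) :
    x⁻¹ • (y • v - v) = (x⁻¹ * y * x) • (x⁻¹ • v) - x⁻¹ • v := by
  rw [smul_sub, mul_smul, mul_smul, smul_inv_smul]

theorem d_nsmul (x : X) (n : ℕ) (v : V) : x • (n • v) - n • v = n • (x • v - v) := by
  rw [smul_sub, smul_comm x n v]

theorem eq_of_smul_eq (hf : ∀ x : X, (∀ v : V, x • v = v) → x = 1) {x y : X}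
    (hxy : ∀ v : V, x • v = y • v) : x = y := by
  have h1 : y⁻¹ * x = 1 := hf _ (fun v => by rw [mul_smul, hxy v, inv_smul_smul])
  exact (inv_mul_eq_one.mp h1).symm

section Quadratic

variable {A : Subgroup X} (hq : ∀ a ∈ A, ∀ a' ∈ A, ∀ v : V, a' • (a • v - v) = a • v - v)

include hq

theorem quad_conjBy (x : X) :
    ∀ a ∈ conjBy A x, ∀ a' ∈ conjBy A x, ∀ v : V, a' • (a • v - v) = a • v - v := by
  intro a ha a' ha' v
  rw [mem_conjBy] at ha ha'
  have e1 : a = x * (x⁻¹ * a * x) * x⁻¹ := by group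
  have e2 : a' = x * (x⁻¹ * a' * x) * x⁻¹ := by group
  have h1 : a • v - v = x • ((x⁻¹ * a * x) • (x⁻¹ • v) - x⁻¹ • v) := by
    conv_lhs => rw [e1]
    exact d_conj x _ v
  rw [h1]
  conv_lhs => rw [e2]
  rw [mul_smul, mul_smul, inv_smul_smul, hq _ ha _ ha']

theorem quad_mul {a a' : X} (ha : a ∈ A) (ha' : a' ∈ A) (v : V) :
    (a * a') • v - v = (a' • v - v) + (a • v - v) := by
  rw [d_mul, hq a' ha' a ha]

theorem quad_pow {a : X} (ha : a ∈ A) (n : ℕ) (v : V) : (a ^ n) • v - v = n • (a • v - v) := by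
  induction n with
  | zero => simp
  | succ n ih =>
    rw [pow_succ, quad_mul hq (A.pow_mem ha n) ha, ih, succ_nsmul, add_comm]

theorem quad_comm (hf : ∀ x : X, (∀ v : V, x • v = v) → x = 1) {a a' : X} (ha : a ∈ A)
    (ha' : a' ∈ A) : a * a' = a' * a := by
  apply eq_of_smul_eq hf
  intro v
  have h1 := quad_mul hq ha ha' v
  have h2 := quad_mul hq ha' ha v
  have h3 : (a * a') • v - v = (a' * a) • v - v := by rw [h1, h2, add_comm]
  exact sub_left_injective h3

theorem quad_isMulCommutative (hf : ∀ x : X, (∀ v : V, x • v = v) → x = 1) :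
    IsMulCommutative A := by
  constructor
  constructor
  rintro ⟨a, ha⟩ ⟨a', ha'⟩
  apply Subtype.ext
  exact quad_comm hq hf ha ha'

end Quadratic

end Cfsg.Agent.Lib.Helper25.Quad
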