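import Mathlib
import Cfsg.Prelude.Def_RootSubgroups
import Cfsg.Agent.Lib.Helper25.RankOne

set_option autoImplicit false

namespace Cfsg.Agent.Lib.Helper25.Special

open Cfsg Cfsg.Agent.Lib.Helper25.RankOne

variable {G : Type*} [Group G]

/-- `a ∈ A#` and `b ∈ B#` are matched: `b⁻¹ A b = a⁻¹ B a` -/
def Matched (A B : Subgroup G) (a b : G) : Prop :=
  a ∈ A ∧ a ≠ 1 ∧ b ∈ B ∧ b ≠ 1 ∧ conjBy A b⁻¹ = conjBy B a⁻¹

theorem matched_symm {A B : Subgroup G} {a b : G} (h : Matched A B a b) : Matched B A b a :=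
  ⟨h.2.2.1, h.2.2.2.1, h.1, h.2.1, h.2.2.2.2.symm⟩

theorem exists_matched_left {A B : Subgroup G} (hp : IsRankOnePair A B) {a : G} (ha : a ∈ A)
    (ha1 : a ≠ 1) : ∃ b, Matched A B a b := by
  obtain ⟨b, hb, hb1, hab⟩ := hp.cond_left a ha ha1
  exact ⟨b, ha, ha1, hb, hb1, hab⟩

theorem exists_matched_right {A B : Subgroup G} (hp : IsRankOnePair A B) {b : G} (hb : b ∈ B)
    (hb1 : b ≠ 1) : ∃ a, Matched A B a b := by
  obtain ⟨a, ha, ha1, hab⟩ := hp.cond_right b hb hb1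
  exact ⟨a, ha, ha1, hb, hb1, hab.symm⟩

theorem matched_unique_right {A B : Subgroup G} (hp : IsRankOnePair A B) {a b b' : G}
    (h : Matched A B a b) (h' : Matched A B a b') : b = b' :=
  (existsUnique_left hp h.1 h.2.1).unique ⟨h.2.2.1, h.2.2.2.1, h.2.2.2.2⟩
    ⟨h'.2.2.1, h'.2.2.2.1, h'.2.2.2.2⟩

theorem matched_unique_left {A B : Subgroup G} (hp : IsRankOnePair A B) {a a' b : G}
    (h : Matched A B a b) (h' : Matched A B a' b) : a = a' :=
  (existsUnique_right hp h.2.2.1 h.2.2.2.1).unique ⟨h.1, h.2.1, h.2.2.2.2⟩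
    ⟨h'.1, h'.2.1, h'.2.2.2.2⟩

theorem special_symm {A B : Subgroup G} (hs : IsSpecialRankOnePair A B) :
    IsSpecialRankOnePair B A := by
  refine ⟨RankOnePair_symm hs.1, ?_⟩
  intro b hb hb1 a ha ha1 hab
  have h := hs.2 a ha ha1 b hb hb1 hab.symm
  have h2 := congrArg (fun t => t⁻¹) h
  simp only [mul_inv_rev, inv_inv] at h2
  rw [← mul_assoc, ← mul_assoc] at h2
  exact h2.symm

section Spec

variable {A B : Subgroup G} (hs : IsSpecialRankOnePair A B) {a b : G} (hm : Matched A B a b)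

include hs hm

theorem braid : a * b⁻¹ * a = b⁻¹ * a * b⁻¹ := by
  have h := hs.2 a hm.1 hm.2.1 b hm.2.2.1 hm.2.2.2.1 hm.2.2.2.2
  have e1 : a * b⁻¹ * a = a * (b⁻¹ * a * b) * b⁻¹ := by group
  rw [e1, h]; group

/-- `a * n = n * b⁻¹` for `n = a * b⁻¹ * a` -/
theorem conj_a : a * (a * b⁻¹ * a) = (a * b⁻¹ * a) * b⁻¹ := by
  have h := braid hs hm
  calc a * (a * b⁻¹ * a) = a * (b⁻¹ * a * b⁻¹) := by rw [h]
    _ = (a * b⁻¹ * a) * b⁻¹ := by group

/-- `b * n = n * a⁻¹` for `n = a * b⁻¹ * a` -/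
theorem conj_b : b * (a * b⁻¹ * a) = (a * b⁻¹ * a) * a⁻¹ := by
  have h := braid hs hm
  calc b * (a * b⁻¹ * a) = b * (b⁻¹ * a * b⁻¹) := by rw [h]
    _ = (a * b⁻¹ * a) * a⁻¹ := by group

theorem conj_a_pow (k : ℕ) : a ^ k * (a * b⁻¹ * a) = (a * b⁻¹ * a) * (b⁻¹) ^ k := by
  induction k with
  | zero => simp
  | succ k ih =>
    rw [pow_succ, pow_succ, mul_assoc, conj_a hs hm, ← mul_assoc, ih, mul_assoc]

theorem matched_inv : Matched A B a⁻¹ b⁻¹ := by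
  obtain ⟨ha, ha1, hb, hb1, hab⟩ := hm
  have hp := hs.1
  refine ⟨A.inv_mem ha, fun h => ha1 (inv_eq_one.mp h), B.inv_mem hb,
    fun h => hb1 (inv_eq_one.mp h), ?_⟩
  rw [inv_inv, inv_inv]
  have hbr := braid hs ⟨ha, ha1, hb, hb1, hab⟩
  -- E = conjBy A (a⁻¹ * b) is normalized by b
  have hE : conjBy (conjBy A (a⁻¹ * b)) b = conjBy A (a⁻¹ * b) := by
    rw [conjBy_conjBy]
    have e : b * (a⁻¹ * b) = (b⁻¹ * a * b⁻¹)⁻¹ := by group
    rw [e, ← hbr]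
    have e2 : (a * b⁻¹ * a)⁻¹ = (a⁻¹ * b) * a⁻¹ := by group
    rw [e2, ← conjBy_conjBy, conjBy_of_mem (A.inv_mem ha)]
  have hEmem : conjBy A (a⁻¹ * b) ∈ unipotentSubgroups A B :=
    conjBy_mem_unipotentSubgroups (left_mem_unipotentSubgroups A B)
      (Subgroup.mul_mem _ (Subgroup.mem_sup_left (A.inv_mem ha)) (Subgroup.mem_sup_right hb))
  have hEB : conjBy A (a⁻¹ * b) = B := by
    by_contra hne
    have hpair : IsRankOnePair B (conjBy A (a⁻¹ * b)) :=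
      isRankOnePair_of_mem_of_mem hp (right_mem_unipotentSubgroups hp) hEmem (Ne.symm hne)
    exact hb1 (eq_one_of_mem_of_conjBy_eq hpair hb hE)
  rw [← conjBy_conjBy] at hEB
  have h3 := conjBy_eq_iff.mp hEB
  rw [inv_inv] at h3
  exact h3

/-- `n A n⁻¹ = B` for `n = a * b⁻¹ * a` -/
theorem conjBy_n_left : conjBy A (a * b⁻¹ * a) = B := by
  rw [braid hs hm]
  have e : b⁻¹ * a * b⁻¹ = b⁻¹ * (a * b⁻¹) := by group
  rw [e, ← conjBy_conjBy, ← conjBy_conjBy, hm.2.2.2.2, conjBy_cancel_inv,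
    conjBy_of_mem (B.inv_mem hm.2.2.1)]

/-- `n B n⁻¹ = A` for `n = a * b⁻¹ * a` -/
theorem conjBy_n_right : conjBy B (a * b⁻¹ * a) = A := by
  have hinv := (matched_inv hs hm).2.2.2.2
  rw [inv_inv, inv_inv] at hinv
  have e : a * b⁻¹ * a = a * (b⁻¹ * a) := by group
  rw [e, ← conjBy_conjBy, ← conjBy_conjBy, ← hinv, conjBy_inv_cancel, conjBy_of_mem hm.1]

end Spec

/-- key step: from `b(a)`, `b(a^(k+1))` and `a(b^(-k))` to a new matched pair -/
theorem matched_step {A B : Subgroup G} (hs : IsSpecialRankOnePair A B) {a b b' r : G} {k : ℕ}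
    (hm : Matched A B a b) (hk : Matched A B (a ^ (k + 1)) b') (hak : a ^ k ≠ 1)
    (hr : Matched A B r ((b⁻¹) ^ k)) : Matched A B (r * a⁻¹) (b' * b⁻¹) := by
  have hp := hs.1
  have hconj : conjBy A (b' * b⁻¹)⁻¹ = conjBy B (r * a⁻¹)⁻¹ := by
    have hpow := conj_a_pow hs hm k
    have e1 : ((b⁻¹) ^ k)⁻¹ = (a * b⁻¹ * a)⁻¹ * (a ^ k)⁻¹ * (a * b⁻¹ * a) := by
      have e0 : (b⁻¹) ^ k = (a * b⁻¹ * a)⁻¹ * (a ^ k * (a * b⁻¹ * a)) := by
        rw [hpow]; group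
      rw [e0]; group
    have e2 : (a * b⁻¹ * a)⁻¹ * (a ^ k)⁻¹ = (a⁻¹ * b) * (a ^ (k + 1))⁻¹ := by
      rw [pow_succ]; group
    have h1 : conjBy B r⁻¹ = conjBy A (a⁻¹ * b * b'⁻¹) := by
      calc conjBy B r⁻¹ = conjBy A ((b⁻¹) ^ k)⁻¹ := hr.2.2.2.2.symm
        _ = conjBy A ((a * b⁻¹ * a)⁻¹ * (a ^ k)⁻¹ * (a * b⁻¹ * a)) := by rw [e1]
        _ = conjBy (conjBy A (a * b⁻¹ * a)) ((a * b⁻¹ * a)⁻¹ * (a ^ k)⁻¹) :=
          (conjBy_conjBy _ _ _).symm
        _ = conjBy B ((a * b⁻¹ * a)⁻¹ * (a ^ k)⁻¹) := by rw [conjBy_n_left hs hm]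
        _ = conjBy B ((a⁻¹ * b) * (a ^ (k + 1))⁻¹) := by rw [e2]
        _ = conjBy (conjBy B (a ^ (k + 1))⁻¹) (a⁻¹ * b) := (conjBy_conjBy _ _ _).symm
        _ = conjBy (conjBy A b'⁻¹) (a⁻¹ * b) := by rw [hk.2.2.2.2]
        _ = conjBy A (a⁻¹ * b * b'⁻¹) := conjBy_conjBy _ _ _
    have e3 : (r * a⁻¹)⁻¹ = a * r⁻¹ := by group
    have e4 : (b' * b⁻¹)⁻¹ = a * (a⁻¹ * b * b'⁻¹) := by group
    calc conjBy A (b' * b⁻¹)⁻¹ = conjBy A (a * (a⁻¹ * b * b'⁻¹)) := by rw [e4]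
      _ = conjBy (conjBy A (a⁻¹ * b * b'⁻¹)) a := (conjBy_conjBy _ _ _).symm
      _ = conjBy (conjBy B r⁻¹) a := by rw [h1]
      _ = conjBy B (a * r⁻¹) := conjBy_conjBy _ _ _
      _ = conjBy B (r * a⁻¹)⁻¹ := by rw [e3]
  refine ⟨A.mul_mem hr.1 (A.inv_mem hm.1), ?_, B.mul_mem hk.2.2.1 (B.inv_mem hm.2.2.1), ?_, hconj⟩
  · intro h1
    rw [h1, inv_one, conjBy_one] at hconj
    have hβ : (b' * b⁻¹)⁻¹ ∈ B := B.inv_mem (B.mul_mem hk.2.2.1 (B.inv_mem hm.2.2.1))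
    have h2 : A = conjBy B ((b' * b⁻¹)⁻¹)⁻¹ := conjBy_eq_iff.mp hconj
    rw [conjBy_of_mem (B.inv_mem hβ)] at h2
    exact hp.ne h2
  · intro h1
    have hbb : b' = b := mul_inv_eq_one.mp h1
    rw [hbb] at hk
    have h2 := matched_unique_left hp hk hm
    apply hak
    rw [pow_succ] at h2
    have h3 : a ^ k * a = 1 * a := by rw [one_mul]; exact h2
    exact mul_right_cancel h3

/-- In a special rank one pair, `b(x ^ n) ^ n = b(x)` whenever `x ^ n ≠ 1`. -/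
theorem pow_matched (k : ℕ) : ∀ {A B : Subgroup G}, IsSpecialRankOnePair A B → ∀ {x v e : G},
    Matched A B x v → Matched A B (x ^ (k + 1)) e → e ^ (k + 1) = v := by
  induction k with
  | zero =>
    intro A B hs x v e hm he
    rw [zero_add, pow_one] at he
    rw [zero_add, pow_one]
    exact matched_unique_right hs.1 he hm
  | succ m ih =>
    intro A B hs x v e hm he
    have hp := hs.1
    have hpow := conj_a_pow hs hm (m + 1)
    by_cases hxm : x ^ (m + 1) = 1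
    · have hx : x ^ (m + 1 + 1) = x := by rw [pow_succ, hxm, one_mul]
      rw [hx] at he
      have hev := matched_unique_right hp he hm
      have hv : (v⁻¹) ^ (m + 1) = 1 := by
        rw [hxm, one_mul] at hpow
        have h3 : (x * v⁻¹ * x) * 1 = (x * v⁻¹ * x) * (v⁻¹) ^ (m + 1) := by
          rw [mul_one]; exact hpow
        exact (mul_left_cancel h3).symm
      have hv' : v ^ (m + 1) = 1 := by
        rw [inv_pow] at hv; exact inv_eq_one.mp hv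
      rw [hev, pow_succ, hv', one_mul]
    · have hvm : (v⁻¹) ^ (m + 1) ≠ 1 := by
        intro h1
        apply hxm
        rw [h1, mul_one] at hpow
        have h3 : x ^ (m + 1) * (x * v⁻¹ * x) = 1 * (x * v⁻¹ * x) := by
          rw [one_mul]; exact hpow
        exact mul_right_cancel h3
      obtain ⟨r, hr⟩ := exists_matched_right hp (B.pow_mem (B.inv_mem hm.2.2.1) (m + 1)) hvm
      have hstep := matched_step hs hm he hxm hr
      have hrm : r ^ (m + 1) = x⁻¹ :=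
        ih (special_symm hs) (matched_symm (matched_inv hs hm)) (matched_symm hr)
      have hy : r * x⁻¹ = r ^ (m + 1 + 1) := by rw [← hrm, ← pow_succ']
      rw [hy] at hstep
      have hyk : (r ^ (m + 1 + 1)) ^ (m + 1) = (x ^ (m + 1 + 1))⁻¹ := by
        rw [← pow_mul, mul_comm, pow_mul, hrm, inv_pow]
      have he' := matched_inv hs he
      rw [← hyk] at he'
      have hfin := ih hs hstep he'
      calc e ^ (m + 1 + 1) = e ^ (m + 1) * e := pow_succ _ _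
        _ = (e * v⁻¹)⁻¹ * e := by rw [← hfin, inv_pow, inv_inv]
        _ = v := by group

end Cfsg.Agent.Lib.Helper25.Special
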