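import Mathlib

set_option autoImplicit false

namespace Cfsg.Agent.Lib.Helper25.SubIrr

variable {G : Type*} [Group G]

/-- the conjugate subgroup `x A x⁻¹` -/
def cj (x : G) (A : Subgroup G) : Subgroup G := A.map (MulAut.conj x).toMonoidHom

theorem mem_cj {x y : G} {A : Subgroup G} : y ∈ cj x A ↔ x⁻¹ * y * x ∈ A := by
  unfold cj
  rw [Subgroup.mem_map_equiv, MulAut.conj_symm_apply]

theorem conj_mem_cj {x a : G} {A : Subgroup G} (ha : a ∈ A) : x * a * x⁻¹ ∈ cj x A := by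
  rw [mem_cj]
  have : x⁻¹ * (x * a * x⁻¹) * x = a := by group
  rw [this]; exact ha

theorem cj_mul (x y : G) (A : Subgroup G) : cj (x * y) A = cj x (cj y A) := by
  ext z
  simp only [mem_cj]
  have : (x * y)⁻¹ * z * (x * y) = y⁻¹ * (x⁻¹ * z * x) * y := by group
  rw [this]

theorem cj_one (A : Subgroup G) : cj 1 A = A := by
  ext z; simp [mem_cj]

theorem cj_inv_cj (x : G) (A : Subgroup G) : cj x⁻¹ (cj x A) = A := by
  rw [← cj_mul, inv_mul_cancel, cj_one]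

theorem cj_cj_inv (x : G) (A : Subgroup G) : cj x (cj x⁻¹ A) = A := by
  rw [← cj_mul, mul_inv_cancel, cj_one]

theorem cj_mono {x : G} {A B : Subgroup G} (h : A ≤ B) : cj x A ≤ cj x B := Subgroup.map_mono h

theorem cj_bot (x : G) : cj x (⊥ : Subgroup G) = ⊥ := Subgroup.map_bot _

theorem cj_inf (x : G) (A B : Subgroup G) : cj x (A ⊓ B) = cj x A ⊓ cj x B :=
  Subgroup.map_inf A B _ (MulAut.conj x).injective

theorem cj_sup (x : G) (A B : Subgroup G) : cj x (A ⊔ B) = cj x A ⊔ cj x B :=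
  Subgroup.map_sup A B _

theorem cj_comm (x : G) (A B : Subgroup G) : cj x ⁅A, B⁆ = ⁅cj x A, cj x B⁆ :=
  Subgroup.map_commutator A B _

theorem card_cj (x : G) (A : Subgroup G) : Nat.card (cj x A) = Nat.card A :=
  Subgroup.card_map_of_injective (MulAut.conj x).injective

theorem cj_self {x : G} {A : Subgroup G} (hx : x ∈ A) : cj x A = A := by
  ext z; rw [mem_cj]; constructor
  · intro h
    have := A.mul_mem (A.mul_mem hx h) (A.inv_mem hx)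
    have e : x * (x⁻¹ * z * x) * x⁻¹ = z := by group
    rwa [e] at this
  · intro h; exact A.mul_mem (A.mul_mem (A.inv_mem hx) h) hx

theorem cj_eq_of_le {A B : Subgroup G} (h : ∀ b ∈ B, cj b A ≤ A) : ∀ b ∈ B, cj b A = A := by
  intro b hb
  refine le_antisymm (h b hb) ?_
  have := cj_mono (x := b) (h b⁻¹ (B.inv_mem hb))
  rwa [cj_cj_inv] at this

theorem cj_eq_iff_normalizer {x : G} {A : Subgroup G} :
    x ∈ Subgroup.normalizer (A : Set G) ↔ cj x A = A := by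
  rw [Subgroup.mem_normalizer_iff]
  constructor
  · intro h; ext z; rw [mem_cj]
    have := h (x⁻¹ * z * x)
    rw [this]
    have e : x * (x⁻¹ * z * x) * x⁻¹ = z := by group
    rw [e]
  · intro h y
    have := SetLike.ext_iff.mp h (x * y * x⁻¹)
    rw [mem_cj] at this
    rw [← this]
    have e : x⁻¹ * (x * y * x⁻¹) * x = y := by group
    rw [e]

theorem conj_mem_of_cj_eq {x a : G} {A : Subgroup G} (h : cj x A = A) (ha : a ∈ A) :
    x * a * x⁻¹ ∈ A := by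
  have := conj_mem_cj (x := x) ha; rwa [h] at this

/-- subnormality of `A` in `K`, for subgroups of a common ambient group -/
inductive SN (K : Subgroup G) : Subgroup G → Prop
  | refl : SN K K
  | step (A B : Subgroup G) : A ≤ B → (∀ b ∈ B, cj b A = A) → SN K B → SN K A

theorem SN.le {K A : Subgroup G} (h : SN K A) : A ≤ K := by
  induction h with
  | refl => exact le_rfl
  | step A B hAB _ _ ih => exact hAB.trans ih

theorem SN.inf_right {K A : Subgroup G} (h : SN K A) (L : Subgroup G) : SN (K ⊓ L) (A ⊓ L) := by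
  induction h with
  | refl => exact SN.refl
  | step A B hAB hn _ ih =>
    refine SN.step (A ⊓ L) (B ⊓ L) (inf_le_inf_right L hAB) ?_ ih
    intro b hb
    rw [cj_inf, hn b (Subgroup.mem_inf.mp hb).1, cj_self (Subgroup.mem_inf.mp hb).2]

theorem SN.restrict {K A L : Subgroup G} (h : SN K A) (hAL : A ≤ L) (hLK : L ≤ K) : SN L A := by
  have := h.inf_right L
  rwa [inf_eq_right.mpr hLK, inf_eq_left.mpr hAL] at this

theorem SN.map_cj {K A : Subgroup G} (h : SN K A) (x : G) : SN (cj x K) (cj x A) := by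
  induction h with
  | refl => exact SN.refl
  | step A B hAB hn _ ih =>
    refine SN.step _ (cj x B) (cj_mono hAB) ?_ ih
    intro b hb
    rw [mem_cj] at hb
    have h1 := hn _ hb
    have : b * x = x * (x⁻¹ * b * x) := by group
    rw [← cj_mul, this, cj_mul, h1]

theorem SN.proper {K A : Subgroup G} (h : SN K A) (hne : A ≠ K) :
    ∃ M : Subgroup G, A ≤ M ∧ M ≤ K ∧ M ≠ K ∧ (∀ k ∈ K, cj k M = M) ∧ SN M A := by
  induction h with
  | refl => exact absurd rfl hne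
  | step A B hAB hn hB ih =>
    by_cases hBK : B = K
    · subst hBK
      exact ⟨A, le_rfl, hAB, hne, hn, SN.refl⟩
    · obtain ⟨M, hBM, hMK, hMne, hMn, hBMs⟩ := ih hBK
      exact ⟨M, hAB.trans hBM, hMK, hMne, hMn, SN.step A B hAB hn hBMs⟩

theorem sn_of_isSubnormal {E : Subgroup G} {H : Subgroup E} (h : H.IsSubnormal) :
    SN E (H.map E.subtype) := by
  induction h with
  | top =>
    have : (⊤ : Subgroup E).map E.subtype = E := by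
      rw [← MonoidHom.range_eq_map, Subgroup.range_subtype]
    rw [this]; exact SN.refl
  | step H K hle hK hN ih =>
    refine SN.step _ _ (Subgroup.map_mono hle) ?_ ih
    apply cj_eq_of_le
    intro b hb z hz
    rw [mem_cj] at hz
    obtain ⟨k, hk, rfl⟩ := hb
    obtain ⟨h, hh, hz'⟩ := hz
    refine ⟨k * h * k⁻¹, ?_, ?_⟩
    · have := hN.conj_mem ⟨h, hle hh⟩ (Subgroup.mem_subgroupOf.mpr hh) ⟨k, hk⟩
      exact Subgroup.mem_subgroupOf.mp this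
    · simp only [map_mul, map_inv, hz']; group

theorem mem_sup_of_comm {A B : Subgroup G} (hc : ∀ a ∈ A, ∀ b ∈ B, a * b = b * a) {g : G}
    (hg : g ∈ A ⊔ B) : ∃ a ∈ A, ∃ b ∈ B, g = a * b := by
  let T : Subgroup G :=
    { carrier := {g | ∃ a ∈ A, ∃ b ∈ B, g = a * b}
      mul_mem' := by
        rintro _ _ ⟨a, ha, b, hb, rfl⟩ ⟨a', ha', b', hb', rfl⟩
        refine ⟨a * a', A.mul_mem ha ha', b * b', B.mul_mem hb hb', ?_⟩
        calc a * b * (a' * b') = a * (b * a') * b' := by group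
          _ = a * (a' * b) * b' := by rw [hc a' ha' b hb]
          _ = a * a' * (b * b') := by group
      one_mem' := ⟨1, A.one_mem, 1, B.one_mem, by simp⟩
      inv_mem' := by
        rintro _ ⟨a, ha, b, hb, rfl⟩
        refine ⟨a⁻¹, A.inv_mem ha, b⁻¹, B.inv_mem hb, ?_⟩
        rw [mul_inv_rev]; exact (hc a⁻¹ (A.inv_mem ha) b⁻¹ (B.inv_mem hb)).symm }
  have h1 : A ⊔ B ≤ T :=
    sup_le (fun a ha => ⟨a, ha, 1, B.one_mem, by simp⟩) (fun b hb => ⟨1, A.one_mem, b, hb, by simp⟩)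
  exact h1 hg

theorem card_sup_mul_card_inf [Finite G] {A B : Subgroup G}
    (hc : ∀ a ∈ A, ∀ b ∈ B, a * b = b * a) :
    Nat.card ↥(A ⊔ B) * Nat.card ↥(A ⊓ B) = Nat.card A * Nat.card B := by
  let φ : A × B →* G := MonoidHom.noncommCoprod A.subtype B.subtype (fun a b => hc a a.2 b b.2)
  have hφ : ∀ x : A × B, φ x = x.1.1 * x.2.1 := fun x => rfl
  have hr : φ.range = A ⊔ B := by
    have := MonoidHom.noncommCoprod_range A.subtype B.subtype (fun a b => hc a a.2 b b.2)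
    rw [Subgroup.range_subtype, Subgroup.range_subtype] at this
    exact this
  have hk : Nat.card φ.ker = Nat.card ↥(A ⊓ B) := by
    have hker : ∀ x : φ.ker, x.1.1.1 * x.1.2.1 = 1 := fun x => by
      have := MonoidHom.mem_ker.mp x.2
      rwa [hφ] at this
    refine Nat.card_congr ?_
    refine
      { toFun := fun x => ⟨x.1.1.1, Subgroup.mem_inf.mpr ⟨x.1.1.2, ?_⟩⟩
        invFun := fun y => ⟨(⟨y.1, (Subgroup.mem_inf.mp y.2).1⟩,
          ⟨y.1⁻¹, B.inv_mem (Subgroup.mem_inf.mp y.2).2⟩), ?_⟩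
        left_inv := ?_
        right_inv := ?_ }
    · have := hker x
      have e : x.1.1.1 = (x.1.2.1)⁻¹ := eq_inv_of_mul_eq_one_left this
      rw [e]; exact B.inv_mem x.1.2.2
    · rw [MonoidHom.mem_ker, hφ]; simp
    · intro x
      have := hker x
      have e : (x.1.1.1)⁻¹ = x.1.2.1 := inv_eq_of_mul_eq_one_right this
      apply Subtype.ext
      apply Prod.ext
      · rfl
      · apply Subtype.ext; exact e
    · intro y; rfl
  have h1 := Subgroup.card_mul_index φ.ker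
  rw [Subgroup.index_ker, Nat.card_prod, hk, hr] at h1
  rw [mul_comm]; exact h1

theorem comm_le {V E : Subgroup G} (hn : ∀ e ∈ E, cj e V = V) : ⁅V, E⁆ ≤ V := by
  rw [Subgroup.commutator_le]
  intro v hv e he
  rw [commutatorElement_def]
  have h1 : e * v⁻¹ * e⁻¹ ∈ V := conj_mem_of_cj_eq (hn e he) (V.inv_mem hv)
  have := V.mul_mem hv h1
  have e2 : v * (e * v⁻¹ * e⁻¹) = v * e * v⁻¹ * e⁻¹ := by group
  rwa [e2] at this

theorem comm_elt_mem {V E : Subgroup G} {e v : G} (he : e ∈ E) (hv : v ∈ V) :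
    e * v * e⁻¹ * v⁻¹ ∈ ⁅V, E⁆ := by
  rw [Subgroup.commutator_comm, ← commutatorElement_def]
  exact Subgroup.commutator_mem_commutator he hv

theorem cj_comm_self {V E : Subgroup G} (hn : ∀ e ∈ E, cj e V = V) :
    ∀ e ∈ E, cj e ⁅V, E⁆ = ⁅V, E⁆ := by
  intro e he; rw [cj_comm, hn e he, cj_self he]

theorem trivial_absurd [Finite G] {E : Subgroup G} (h : ∀ e ∈ E, e = 1) (hc : 2 < Nat.card E) :
    False := by
  have hsub : Subsingleton E :=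
    ⟨fun a b => Subtype.ext ((h a a.2).trans (h b b.2).symm)⟩
  have := Finite.card_le_one_iff_subsingleton.mpr hsub
  omega

theorem exists_two_nontrivial [Finite G] {E : Subgroup G} (hc : 2 < Nat.card E) :
    ∃ e ∈ E, ∃ e' ∈ E, e ≠ 1 ∧ e' ≠ 1 ∧ e ≠ e' := by
  classical
  haveI := Fintype.ofFinite E
  rw [Nat.card_eq_fintype_card, Fintype.two_lt_card_iff] at hc
  obtain ⟨a, b, c, hab, hac, hbc⟩ := hc
  have hne : ∀ u v : E, u ≠ v → (u : G) ≠ (v : G) := fun u v h h' => h (Subtype.ext h')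
  by_cases ha : (a : G) = 1
  · refine ⟨b, b.2, c, c.2, ?_, ?_, hne b c hbc⟩
    · intro hb; exact hne a b hab (ha.trans hb.symm)
    · intro hc'; exact hne a c hac (ha.trans hc'.symm)
  · by_cases hb : (b : G) = 1
    · refine ⟨a, a.2, c, c.2, ha, ?_, hne a c hac⟩
      intro hc'; exact hne b c hbc (hb.trans hc'.symm)
    · exact ⟨a, a.2, b, b.2, ha, hb, hne a b hab⟩

theorem sup_invariant {V E₁ E₂ : Subgroup G} (hn₁ : ∀ e ∈ E₁, cj e V = V) (hB : ⁅V, E₂⁆ ≤ V) :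
    ∀ e ∈ E₁, cj e (⁅V, E₁⁆ ⊔ ⁅V, E₂⁆) = ⁅V, E₁⁆ ⊔ ⁅V, E₂⁆ := by
  apply cj_eq_of_le
  intro e he
  rw [cj_sup, cj_comm_self hn₁ e he]
  refine sup_le le_sup_left ?_
  intro z hz
  rw [mem_cj] at hz
  have h1 : e * (e⁻¹ * z * e) * e⁻¹ * (e⁻¹ * z * e)⁻¹ ∈ ⁅V, E₁⁆ := comm_elt_mem he (hB hz)
  have : z = (e * (e⁻¹ * z * e) * e⁻¹ * (e⁻¹ * z * e)⁻¹) * (e⁻¹ * z * e) := by group
  rw [this]
  exact Subgroup.mul_mem _ (Subgroup.mem_sup_left h1) (Subgroup.mem_sup_right hz)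

/-- the hypotheses on one of the two subgroups -/
structure Hyp (V E₁ : Subgroup G) : Prop where
  nz : ∀ e ∈ E₁, cj e V = V
  irr : ∀ U : Subgroup G, U ≤ ⁅V, E₁⁆ → (∀ e ∈ E₁, cj e U = U) → U = ⊥ ∨ U = ⁅V, E₁⁆
  faith : ∀ e ∈ E₁, (∀ a ∈ ⁅V, E₁⁆, e * a * e⁻¹ = a) → e = 1
  card : 2 < Nat.card E₁

theorem Hyp.map_cj {V E₁ : Subgroup G} (h : Hyp V E₁) {x : G} (hx : cj x V = V) :
    Hyp V (cj x E₁) := by
  have hx' : cj x⁻¹ V = V := by
    calc cj x⁻¹ V = cj x⁻¹ (cj x V) := by rw [hx]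
      _ = V := cj_inv_cj x V
  have hc : ⁅V, cj x E₁⁆ = cj x ⁅V, E₁⁆ := by rw [cj_comm, hx]
  refine ⟨?_, ?_, ?_, ?_⟩
  · intro e he
    rw [mem_cj] at he
    have h1 := h.nz _ he
    have : e = x * (x⁻¹ * e * x) * x⁻¹ := by group
    rw [this, cj_mul, cj_mul, hx', h1, hx]
  · intro U hU hn
    rw [hc] at hU ⊢
    have hU₀ : cj x⁻¹ U ≤ ⁅V, E₁⁆ := by
      have := cj_mono (x := x⁻¹) hU; rwa [cj_inv_cj] at this
    have hn₀ : ∀ e ∈ E₁, cj e (cj x⁻¹ U) = cj x⁻¹ U := by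
      intro e he
      have h1 := hn (x * e * x⁻¹) (conj_mem_cj he)
      have : e * x⁻¹ = x⁻¹ * (x * e * x⁻¹) := by group
      rw [← cj_mul, this, cj_mul, h1]
    rcases h.irr _ hU₀ hn₀ with h0 | h0
    · left
      have := congrArg (cj x) h0
      rwa [cj_cj_inv, cj_bot] at this
    · right
      have := congrArg (cj x) h0
      rwa [cj_cj_inv] at this
  · intro e he hcen
    rw [mem_cj] at he
    have h3 := h.faith _ he (by
      intro a ha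
      have h1 := hcen (x * a * x⁻¹) (by rw [hc]; exact conj_mem_cj ha)
      have : x⁻¹ * e * x * a * (x⁻¹ * e * x)⁻¹ = x⁻¹ * (e * (x * a * x⁻¹) * e⁻¹) * x := by group
      rw [this, h1]; group)
    have h2 : e = x * (x⁻¹ * e * x) * x⁻¹ := by group
    rw [h2, h3]; group
  · rw [card_cj]; exact h.card


theorem count_aux {α β σ ι : ℕ} (hα : 0 < α) (hβ : 0 < β) (hσ : 0 < σ) (hι : 0 < ι)
    (c1 : σ * ι = α * β) (c4 : α * α ≤ σ) (c5 : β * β ≤ σ) : ι = 1 ∧ α = β ∧ σ = α * α := by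
  have h1 : α * β ≤ σ := by
    rw [← Nat.mul_self_le_mul_self_iff]
    calc α * β * (α * β) = (α * α) * (β * β) := by ring
      _ ≤ σ * σ := Nat.mul_le_mul c4 c5
  have h2 : ι ≤ 1 := by
    have : σ * ι ≤ σ * 1 := by rw [c1, mul_one]; exact h1
    exact Nat.le_of_mul_le_mul_left this hσ
  have h3 : ι = 1 := by omega
  rw [h3, mul_one] at c1
  rw [c1] at c4 c5
  have h4 : α ≤ β := Nat.le_of_mul_le_mul_left c4 hα
  have h5 : β ≤ α := by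
    rw [mul_comm α β] at c5
    exact Nat.le_of_mul_le_mul_left c5 hβ
  have h6 : α = β := le_antisymm h4 h5
  refine ⟨h3, h6, ?_⟩
  rw [c1, ← h6]

theorem norm_step [Finite G] (V E₁ E₂ : Subgroup G) (hV : ∀ a ∈ V, ∀ b ∈ V, a * b = b * a)
    (h₁ : Hyp V E₁) (h₂ : Hyp V E₂) (h12 : ¬ ⁅V, E₁⁆ ≤ ⁅V, E₂⁆)
    (ws₁ : ∀ x ∈ E₂, cj x ⁅V, E₁⁆ = ⁅V, E₁⁆ ∨
      (⁅V, E₁⁆ ⊓ cj x ⁅V, E₁⁆ = ⊥ ∧ ∀ w ∈ cj x ⁅V, E₁⁆, ∀ e ∈ E₁, e * w * e⁻¹ = w))
    (ws₂ : ∀ x ∈ E₁, cj x ⁅V, E₂⁆ = ⁅V, E₂⁆ ∨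
      (⁅V, E₂⁆ ⊓ cj x ⁅V, E₂⁆ = ⊥ ∧ ∀ w ∈ cj x ⁅V, E₂⁆, ∀ e ∈ E₂, e * w * e⁻¹ = w)) :
    ∀ y ∈ E₂, cj y ⁅V, E₁⁆ = ⁅V, E₁⁆ := by
  intro y hy
  by_contra hmove
  obtain ⟨hAA', hcent⟩ := (ws₁ y hy).resolve_left hmove
  obtain ⟨A, hA⟩ : ∃ A, A = ⁅V, E₁⁆ := ⟨_, rfl⟩
  obtain ⟨B, hB⟩ : ∃ B, B = ⁅V, E₂⁆ := ⟨_, rfl⟩
  have hAV : A ≤ V := hA ▸ comm_le h₁.nz
  have hBV : B ≤ V := hB ▸ comm_le h₂.nz
  have hnA : ∀ e ∈ E₁, cj e A = A := hA ▸ cj_comm_self h₁.nz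
  have hnB : ∀ e ∈ E₂, cj e B = B := hB ▸ cj_comm_self h₂.nz
  have hcA : ∀ e ∈ E₁, ∀ v ∈ V, e * v * e⁻¹ * v⁻¹ ∈ A := fun e he v hv => hA ▸ comm_elt_mem he hv
  have hcB : ∀ e ∈ E₂, ∀ v ∈ V, e * v * e⁻¹ * v⁻¹ ∈ B := fun e he v hv => hB ▸ comm_elt_mem he hv
  have hS₁ : ∀ e ∈ E₁, cj e (A ⊔ B) = A ⊔ B := by
    rw [hA, hB]; exact sup_invariant h₁.nz (comm_le h₂.nz)
  have hS₂ : ∀ e ∈ E₂, cj e (A ⊔ B) = A ⊔ B := by
    rw [hA, hB, sup_comm]; exact sup_invariant h₂.nz (comm_le h₁.nz)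
  rw [← hA] at hmove hAA' hcent h12 ws₁
  rw [← hB] at h12 ws₂
  -- E₁ does not normalise B
  have h2b : ∃ e₁ ∈ E₁, cj e₁ B ≠ B := by
    by_contra hcon
    push Not at hcon
    have key : ∀ e ∈ E₁, ∀ a ∈ A, e * a * e⁻¹ * a⁻¹ ∈ A ⊓ B := by
      intro e he a ha
      refine Subgroup.mem_inf.mpr ⟨hcA e he a (hAV ha), ?_⟩
      have hd : y * a * y⁻¹ * a⁻¹ ∈ B := hcB y hy a (hAV ha)
      have hd' : e * (y * a * y⁻¹ * a⁻¹) * e⁻¹ ∈ B := conj_mem_of_cj_eq (hcon e he) hd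
      have hfix : e * (y * a * y⁻¹) * e⁻¹ = y * a * y⁻¹ := hcent _ (conj_mem_cj ha) e he
      obtain ⟨u, hu⟩ : ∃ u, u = y * a * y⁻¹ := ⟨_, rfl⟩
      rw [← hu] at hd hd' hfix
      have e1 : e * (u * a⁻¹) * e⁻¹ = (e * u * e⁻¹) * (e * a⁻¹ * e⁻¹) := by group
      rw [hfix] at e1
      have e2 : e * a * e⁻¹ * a⁻¹ = (e * (u * a⁻¹) * e⁻¹)⁻¹ * (u * a⁻¹) := by rw [e1]; group
      rw [e2]; exact B.mul_mem (B.inv_mem hd') hd
    have hU : ∀ e ∈ E₁, cj e (A ⊓ B) = A ⊓ B := fun e he => by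
      rw [cj_inf, hnA e he, hcon e he]
    rcases h₁.irr (A ⊓ B) (hA ▸ inf_le_left) hU with h0 | h0
    · refine trivial_absurd (E := E₁) ?_ h₁.card
      intro e he
      apply h₁.faith e he
      intro a ha
      have := key e he a (hA ▸ ha)
      rw [h0, Subgroup.mem_bot] at this
      exact mul_inv_eq_one.mp this
    · rw [← hA] at h0
      exact h12 (by rw [← h0]; exact inf_le_right)
  obtain ⟨e₁, he₁, hmoveB⟩ := h2b
  obtain ⟨hBB', hcent₂⟩ := (ws₂ e₁ he₁).resolve_left hmoveB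
  -- counting
  have hA'V : cj y A ≤ V := by
    have := cj_mono (x := y) hAV; rwa [h₂.nz y hy] at this
  have hB'V : cj e₁ B ≤ V := by
    have := cj_mono (x := e₁) hBV; rwa [h₁.nz e₁ he₁] at this
  have hA'S : cj y A ≤ A ⊔ B := by
    have := cj_mono (x := y) (le_sup_left : A ≤ A ⊔ B); rwa [hS₂ y hy] at this
  have hB'S : cj e₁ B ≤ A ⊔ B := by
    have := cj_mono (x := e₁) (le_sup_right : B ≤ A ⊔ B); rwa [hS₁ e₁ he₁] at this
  have c1 := card_sup_mul_card_inf (A := A) (B := B) (fun a ha b hb => hV a (hAV ha) b (hBV hb))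
  have c2 := card_sup_mul_card_inf (A := A) (B := cj y A)
    (fun a ha b hb => hV a (hAV ha) b (hA'V hb))
  have c3 := card_sup_mul_card_inf (A := B) (B := cj e₁ B)
    (fun a ha b hb => hV a (hBV ha) b (hB'V hb))
  rw [hAA', Subgroup.card_bot, mul_one, card_cj] at c2
  rw [hBB', Subgroup.card_bot, mul_one, card_cj] at c3
  have c4 : Nat.card ↥(A ⊔ cj y A) ≤ Nat.card ↥(A ⊔ B) :=
    Subgroup.card_le_of_le (sup_le le_sup_left hA'S)
  have c5 : Nat.card ↥(B ⊔ cj e₁ B) ≤ Nat.card ↥(A ⊔ B) :=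
    Subgroup.card_le_of_le (sup_le le_sup_right hB'S)
  rw [c2] at c4
  rw [c3] at c5
  obtain ⟨hι, hαβ, hσ⟩ := count_aux Nat.card_pos Nat.card_pos Nat.card_pos Nat.card_pos c1 c4 c5
  have hAB : A ⊓ B = ⊥ := Subgroup.card_eq_one.mp hι
  have hBA' : B ⊓ cj y A = ⊥ := by
    rw [eq_bot_iff]
    intro z hz
    obtain ⟨hz1, hz2⟩ := Subgroup.mem_inf.mp hz
    rw [mem_cj] at hz2
    have hz3 : y⁻¹ * z * y ∈ B := by
      have := conj_mem_of_cj_eq (hnB y⁻¹ (E₂.inv_mem hy)) hz1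
      rwa [inv_inv] at this
    have : y⁻¹ * z * y ∈ A ⊓ B := Subgroup.mem_inf.mpr ⟨hz2, hz3⟩
    rw [hAB, Subgroup.mem_bot] at this
    rw [Subgroup.mem_bot]
    have e : z = y * (y⁻¹ * z * y) * y⁻¹ := by group
    rw [e, this]; group
  have hBA'S : B ⊔ cj y A = A ⊔ B := by
    have c6 := card_sup_mul_card_inf (A := B) (B := cj y A)
      (fun a ha b hb => hV a (hBV ha) b (hA'V hb))
    rw [hBA', Subgroup.card_bot, mul_one, card_cj] at c6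
    refine Subgroup.eq_of_le_of_card_ge (sup_le le_sup_right hA'S) ?_
    rw [c6, hσ, ← hαβ]
  -- an element of E₁ normalising B is trivial
  have h2f : ∀ e₀ ∈ E₁, cj e₀ B = B → e₀ = 1 := by
    intro e₀ he₀ hfixB
    apply h₁.faith e₀ he₀
    intro a ha
    rw [← hA] at ha
    have haS : a ∈ B ⊔ cj y A := by rw [hBA'S]; exact Subgroup.mem_sup_left ha
    obtain ⟨b, hb, w, hw, rfl⟩ :=
      mem_sup_of_comm (fun b hb w hw => hV b (hBV hb) w (hA'V hw)) haS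
    have hw' : e₀ * w * e₀⁻¹ = w := hcent w hw e₀ he₀
    have hb' : e₀ * b * e₀⁻¹ ∈ B := conj_mem_of_cj_eq hfixB hb
    have e1 : e₀ * (b * w) * e₀⁻¹ = (e₀ * b * e₀⁻¹) * (e₀ * w * e₀⁻¹) := by group
    rw [hw'] at e1
    have e2 : e₀ * (b * w) * e₀⁻¹ * (b * w)⁻¹ = (e₀ * b * e₀⁻¹) * b⁻¹ := by rw [e1]; group
    have h3 : e₀ * (b * w) * e₀⁻¹ * (b * w)⁻¹ ∈ A ⊓ B :=
      Subgroup.mem_inf.mpr ⟨hcA e₀ he₀ _ (hAV ha), by rw [e2]; exact B.mul_mem hb' (B.inv_mem hb)⟩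
    rw [hAB, Subgroup.mem_bot] at h3
    exact mul_inv_eq_one.mp h3
  -- two distinct nontrivial elements of E₁
  obtain ⟨e, he, e', he', hne1, hne1', hnee'⟩ := exists_two_nontrivial h₁.card
  have hm1 : cj e B ≠ B := fun h => hne1 (h2f e he h)
  have hm2 : cj e' B ≠ B := fun h => hne1' (h2f e' he' h)
  have hm3 : cj (e⁻¹ * e') B ≠ B := fun h => by
    have := h2f _ (E₁.mul_mem (E₁.inv_mem he) he') h
    exact hnee' (inv_mul_eq_one.mp this)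
  obtain ⟨-, hcen1⟩ := (ws₂ e he).resolve_left hm1
  obtain ⟨-, hcen2⟩ := (ws₂ e' he').resolve_left hm2
  obtain ⟨hd3, -⟩ := (ws₂ _ (E₁.mul_mem (E₁.inv_mem he) he')).resolve_left hm3
  have hB12 : cj e B ⊓ cj e' B = ⊥ := by
    have := congrArg (cj e) hd3
    rwa [cj_inf, ← cj_mul, mul_inv_cancel_left, cj_bot] at this
  have hB1V : cj e B ≤ V := by
    have := cj_mono (x := e) hBV; rwa [h₁.nz e he] at this
  have hB2V : cj e' B ≤ V := by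
    have := cj_mono (x := e') hBV; rwa [h₁.nz e' he'] at this
  have hB1S : cj e B ≤ A ⊔ B := by
    have := cj_mono (x := e) (le_sup_right : B ≤ A ⊔ B); rwa [hS₁ e he] at this
  have hB2S : cj e' B ≤ A ⊔ B := by
    have := cj_mono (x := e') (le_sup_right : B ≤ A ⊔ B); rwa [hS₁ e' he'] at this
  have hB12S : cj e B ⊔ cj e' B = A ⊔ B := by
    have c7 := card_sup_mul_card_inf (A := cj e B) (B := cj e' B)
      (fun a ha b hb => hV a (hB1V ha) b (hB2V hb))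
    rw [hB12, Subgroup.card_bot, mul_one, card_cj, card_cj] at c7
    refine Subgroup.eq_of_le_of_card_ge (sup_le hB1S hB2S) ?_
    rw [c7, hσ, ← hαβ]
  refine trivial_absurd (E := E₂) ?_ h₂.card
  intro f hf
  apply h₂.faith f hf
  intro b hb
  rw [← hB] at hb
  have hbS : b ∈ cj e B ⊔ cj e' B := by rw [hB12S]; exact Subgroup.mem_sup_right hb
  obtain ⟨b₁, hb₁, b₂, hb₂, rfl⟩ :=
    mem_sup_of_comm (fun b hb w hw => hV b (hB1V hb) w (hB2V hw)) hbS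
  have e1 : f * (b₁ * b₂) * f⁻¹ = (f * b₁ * f⁻¹) * (f * b₂ * f⁻¹) := by group
  rw [e1, hcen1 b₁ hb₁ f hf, hcen2 b₂ hb₂ f hf]

/-- the conclusion of the inductive statement -/
def Concl (V E₁ E₂ : Subgroup G) : Prop :=
  (∀ w ∈ ⁅V, E₂⁆, ∀ e ∈ E₁, e * w * e⁻¹ = w) ∧ (∀ w ∈ ⁅V, E₁⁆, ∀ e ∈ E₂, e * w * e⁻¹ = w) ∧
    ⁅V, E₁⁆ ⊓ ⁅V, E₂⁆ = ⊥

theorem ws [Finite G] (V : Subgroup G) (n : ℕ)
    (IH : ∀ m < n, ∀ E₁ E₂ : Subgroup G, Nat.card ↥(E₁ ⊔ E₂) = m → Hyp V E₁ → Hyp V E₂ →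
      SN (E₁ ⊔ E₂) E₁ → SN (E₁ ⊔ E₂) E₂ → ¬ ⁅V, E₁⁆ ≤ ⁅V, E₂⁆ → ¬ ⁅V, E₂⁆ ≤ ⁅V, E₁⁆ →
      Concl V E₁ E₂)
    (E E₁ : Subgroup G) (hn : Nat.card E = n) (hE : ∀ e ∈ E, cj e V = V) (h₁ : Hyp V E₁)
    (hs : SN E E₁) (hne : E₁ ≠ E) :
    ∀ x ∈ E, cj x ⁅V, E₁⁆ = ⁅V, E₁⁆ ∨
      (⁅V, E₁⁆ ⊓ cj x ⁅V, E₁⁆ = ⊥ ∧ ∀ w ∈ cj x ⁅V, E₁⁆, ∀ e ∈ E₁, e * w * e⁻¹ = w) := by
  intro x hx
  by_cases hmove : cj x ⁅V, E₁⁆ = ⁅V, E₁⁆
  · exact Or.inl hmove
  right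
  obtain ⟨M, hE₁M, hME, hMne, hMn, hsM⟩ := hs.proper hne
  have hcM : Nat.card M < n := by
    rw [← hn]
    by_contra hcon
    exact hMne (Subgroup.eq_of_le_of_card_ge hME (not_lt.mp hcon))
  have hE₁'M : cj x E₁ ≤ M := by
    have := cj_mono (x := x) hE₁M; rwa [hMn x hx] at this
  have hJ : E₁ ⊔ cj x E₁ ≤ M := sup_le hE₁M hE₁'M
  have hs1 : SN (E₁ ⊔ cj x E₁) E₁ := hsM.restrict le_sup_left hJ
  have hs2 : SN (E₁ ⊔ cj x E₁) (cj x E₁) := by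
    have := hsM.map_cj x
    rw [hMn x hx] at this
    exact this.restrict le_sup_right hJ
  have hcomm : ⁅V, cj x E₁⁆ = cj x ⁅V, E₁⁆ := by rw [cj_comm, hE x hx]
  have h₁' : Hyp V (cj x E₁) := h₁.map_cj (hE x hx)
  have hcard : Nat.card ↥(cj x ⁅V, E₁⁆) = Nat.card ↥⁅V, E₁⁆ := card_cj _ _
  have hi1 : ¬ ⁅V, E₁⁆ ≤ ⁅V, cj x E₁⁆ := by
    rw [hcomm]; intro hle
    exact hmove (Subgroup.eq_of_le_of_card_ge hle hcard.le).symm
  have hi2 : ¬ ⁅V, cj x E₁⁆ ≤ ⁅V, E₁⁆ := by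
    rw [hcomm]; intro hle
    exact hmove (Subgroup.eq_of_le_of_card_ge hle hcard.ge)
  obtain ⟨c1, c2, c3⟩ := IH _ (lt_of_le_of_lt (Subgroup.card_le_of_le hJ) hcM) E₁ (cj x E₁) rfl
    h₁ h₁' hs1 hs2 hi1 hi2
  rw [hcomm] at c1 c3
  exact ⟨c3, c1⟩

theorem key [Finite G] (V : Subgroup G) (hV : ∀ a ∈ V, ∀ b ∈ V, a * b = b * a) :
    ∀ n : ℕ, ∀ E₁ E₂ : Subgroup G, Nat.card ↥(E₁ ⊔ E₂) = n → Hyp V E₁ → Hyp V E₂ →
      SN (E₁ ⊔ E₂) E₁ → SN (E₁ ⊔ E₂) E₂ → ¬ ⁅V, E₁⁆ ≤ ⁅V, E₂⁆ → ¬ ⁅V, E₂⁆ ≤ ⁅V, E₁⁆ →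
      Concl V E₁ E₂ := by
  intro n
  induction n using Nat.strong_induction_on with
  | _ n IH =>
    intro E₁ E₂ hn h₁ h₂ hs₁ hs₂ h12 h21
    have hE : ∀ e ∈ E₁ ⊔ E₂, cj e V = V := by
      intro e he
      rw [← cj_eq_iff_normalizer]
      have : E₁ ⊔ E₂ ≤ Subgroup.normalizer (V : Set G) :=
        sup_le (fun e he => cj_eq_iff_normalizer.mpr (h₁.nz e he))
          (fun e he => cj_eq_iff_normalizer.mpr (h₂.nz e he))
      exact this he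
    have hne₁ : E₁ ≠ E₁ ⊔ E₂ := by
      intro h
      apply h21
      have : E₂ ≤ E₁ := by rw [h]; exact le_sup_right
      exact Subgroup.commutator_mono le_rfl this
    have hne₂ : E₂ ≠ E₁ ⊔ E₂ := by
      intro h
      apply h12
      have : E₁ ≤ E₂ := by rw [h]; exact le_sup_left
      exact Subgroup.commutator_mono le_rfl this
    have ws₁ := ws V n IH (E₁ ⊔ E₂) E₁ hn hE h₁ hs₁ hne₁
    have ws₂ := ws V n IH (E₁ ⊔ E₂) E₂ hn hE h₂ hs₂ hne₂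
    have N₂₁ := norm_step V E₁ E₂ hV h₁ h₂ h12
      (fun x hx => ws₁ x (Subgroup.mem_sup_right hx)) (fun x hx => ws₂ x (Subgroup.mem_sup_left hx))
    have N₁₂ := norm_step V E₂ E₁ hV h₂ h₁ h21
      (fun x hx => ws₂ x (Subgroup.mem_sup_left hx)) (fun x hx => ws₁ x (Subgroup.mem_sup_right hx))
    have hAB : ⁅V, E₁⁆ ⊓ ⁅V, E₂⁆ = ⊥ := by
      have hU : ∀ e ∈ E₂, cj e (⁅V, E₁⁆ ⊓ ⁅V, E₂⁆) = ⁅V, E₁⁆ ⊓ ⁅V, E₂⁆ := fun e he => by
        rw [cj_inf, N₂₁ e he, cj_comm_self h₂.nz e he]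
      rcases h₂.irr _ inf_le_right hU with h0 | h0
      · exact h0
      · exact absurd (by rw [← h0]; exact inf_le_left) h21
    refine ⟨?_, ?_, hAB⟩
    · intro w hw e he
      have h1 : e * w * e⁻¹ * w⁻¹ ∈ ⁅V, E₁⁆ := comm_elt_mem he (comm_le h₂.nz hw)
      have h2 : e * w * e⁻¹ * w⁻¹ ∈ ⁅V, E₂⁆ :=
        Subgroup.mul_mem _ (conj_mem_of_cj_eq (N₁₂ e he) hw) (Subgroup.inv_mem _ hw)
      have : e * w * e⁻¹ * w⁻¹ ∈ ⁅V, E₁⁆ ⊓ ⁅V, E₂⁆ := Subgroup.mem_inf.mpr ⟨h1, h2⟩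
      rw [hAB, Subgroup.mem_bot] at this
      exact mul_inv_eq_one.mp this
    · intro w hw e he
      have h1 : e * w * e⁻¹ * w⁻¹ ∈ ⁅V, E₂⁆ := comm_elt_mem he (comm_le h₁.nz hw)
      have h2 : e * w * e⁻¹ * w⁻¹ ∈ ⁅V, E₁⁆ :=
        Subgroup.mul_mem _ (conj_mem_of_cj_eq (N₂₁ e he) hw) (Subgroup.inv_mem _ hw)
      have : e * w * e⁻¹ * w⁻¹ ∈ ⁅V, E₁⁆ ⊓ ⁅V, E₂⁆ := Subgroup.mem_inf.mpr ⟨h2, h1⟩
      rw [hAB, Subgroup.mem_bot] at this
      exact mul_inv_eq_one.mp this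

end Cfsg.Agent.Lib.Helper25.SubIrr
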