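import Mathlib
import Cfsg.Prelude.Def_Transfer
import Cfsg.Prelude.Def_Balance
import Cfsg.Agent.Lib.Helper25.NormalRank4

/-!
# `2`-connectedness of `3`-groups of rank at least `4`

* `card_le_cube` : an element `f` with `f ^ 3 = 1` acting on a normal elementary abelian `3`-subgroup
  `A` has `|A| ≤ |C_A(f)| ^ 3`;
* `two_connected` : a `3`-group of `3`-rank at least `4` is `2`-connected, through a normal
  elementary abelian subgroup of order `81` (`NormalRank4.main`).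
-/

set_option autoImplicit false

namespace Cfsg.Agent.Lib.Helper25.TwoConn

open Cfsg Cfsg.Agent.Lib.Helper25.NormalRank4
open scoped commutatorElement

open scoped IsMulCommutative in
/-- an element of order dividing `3` normalizing an elementary abelian `3`-group `A` has
`|A| ≤ |C_A(f)| ^ 3` -/
theorem card_le_cube {G : Type*} [Group G] [Finite G] (A : Subgroup G) [hAn : A.Normal]
    (hA : IsElementaryAbelian 3 A) (f : G) (hf : f ^ 3 = 1) :
    Nat.card A ≤ (Nat.card (A ⊓ Subgroup.centralizer {f} : Subgroup G)) ^ 3 := by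
  classical
  haveI : IsMulCommutative ↥A := hA.1
  have hcube : ∀ x : ↥A, x⁻¹ * x⁻¹ = x := by
    intro x
    have h1 : x ^ 3 = 1 := Subtype.ext (by
      have := hA.2 x x.2
      simpa using this)
    rw [← mul_inv_rev]
    apply inv_eq_of_mul_eq_one_left
    rw [← mul_assoc, ← pow_two, ← pow_succ]
    exact h1
  obtain ⟨φ, hφ⟩ : ∃ φ : ↥A →* ↥A, ∀ a : ↥A, ((φ a : ↥A) : G) = f * a * f⁻¹ :=
    ⟨(MulAut.conjNormal f : MulAut ↥A).toMonoidHom, fun a => by simp⟩
  have hφ3 : ∀ a, φ (φ (φ a)) = a := by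
    intro a
    apply Subtype.ext
    rw [hφ, hφ, hφ]
    have e : f * (f * (f * (a : G) * f⁻¹) * f⁻¹) * f⁻¹ = (f * f * f) * a * (f * f * f)⁻¹ := by
      group
    have e2 : f * f * f = 1 := by rw [← pow_two, ← pow_succ]; exact hf
    rw [e, e2]
    group
  obtain ⟨δ, hδ⟩ : ∃ δ : ↥A →* ↥A, ∀ a, δ a = φ a * a⁻¹ := by
    refine ⟨MonoidHom.mk' (fun a => φ a * a⁻¹) ?_, fun a => rfl⟩
    intro a b
    show φ (a * b) * (a * b)⁻¹ = φ a * a⁻¹ * (φ b * b⁻¹)
    rw [map_mul, mul_inv, mul_mul_mul_comm]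
  have hδδ : ∀ a, δ (δ a) = a * φ a * φ (φ a) := by
    intro a
    rw [hδ, hδ, map_mul, map_inv, mul_inv, inv_inv]
    calc φ (φ a) * (φ a)⁻¹ * ((φ a)⁻¹ * a) = a * ((φ a)⁻¹ * (φ a)⁻¹) * φ (φ a) := by ac_rfl
      _ = a * φ a * φ (φ a) := by rw [hcube]
  have hNK : ∀ a, δ (δ (δ a)) = 1 := by
    intro a
    have h1 : δ (δ (δ a)) = δ (a * φ a * φ (φ a)) := congrArg δ (hδδ a)
    rw [h1, hδ, map_mul, map_mul, hφ3, mul_inv_eq_one]
    ac_rfl
  have hkermem : ∀ a : ↥A, a ∈ δ.ker ↔ (a : G) ∈ A ⊓ Subgroup.centralizer {f} := by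
    intro a
    rw [MonoidHom.mem_ker, hδ, mul_inv_eq_one, Subgroup.mem_inf, Subgroup.mem_centralizer_iff]
    constructor
    · intro h
      refine ⟨a.2, fun x hx => ?_⟩
      rw [Set.mem_singleton_iff] at hx
      rw [hx]
      have h1 := congrArg Subtype.val h
      rw [hφ] at h1
      calc f * (a : G) = f * a * f⁻¹ * f := by group
        _ = a * f := by rw [h1]
    · intro h
      apply Subtype.ext
      rw [hφ]
      have h1 := h.2 f rfl
      calc f * (a : G) * f⁻¹ = (a : G) * f * f⁻¹ := by rw [h1]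
        _ = a := by group
  have hkercard : Nat.card δ.ker = Nat.card (A ⊓ Subgroup.centralizer {f} : Subgroup G) := by
    have h1 : δ.ker = (A ⊓ Subgroup.centralizer {f}).subgroupOf A := by
      ext a
      rw [hkermem a, Subgroup.mem_subgroupOf]
    rw [h1]
    exact Nat.card_congr (Subgroup.subgroupOfEquivOfLe inf_le_left).toEquiv
  have h1 : Nat.card A = Nat.card δ.range * Nat.card δ.ker := by
    rw [Subgroup.card_eq_card_quotient_mul_card_subgroup δ.ker,
      Nat.card_congr (QuotientGroup.quotientKerEquivRange δ).toEquiv]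
  obtain ⟨δ₂, hδ₂⟩ : ∃ δ₂ : ↥δ.range →* ↥A, ∀ x : ↥δ.range, δ₂ x = δ (x : ↥A) :=
    ⟨δ.comp δ.range.subtype, fun x => rfl⟩
  have h2 : Nat.card δ.range = Nat.card δ₂.range * Nat.card δ₂.ker := by
    rw [Subgroup.card_eq_card_quotient_mul_card_subgroup δ₂.ker,
      Nat.card_congr (QuotientGroup.quotientKerEquivRange δ₂).toEquiv]
  have h3 : Nat.card δ₂.range ≤ Nat.card δ.ker := by
    apply Subgroup.card_le_of_le
    intro y hy
    obtain ⟨x, rfl⟩ := MonoidHom.mem_range.mp hy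
    obtain ⟨a, ha⟩ := MonoidHom.mem_range.mp x.2
    rw [MonoidHom.mem_ker, hδ₂, ← ha]
    exact hNK a
  have h4 : Nat.card δ₂.ker ≤ Nat.card δ.ker := by
    apply Nat.card_le_card_of_injective
      (fun x : ↥δ₂.ker => (⟨((x : ↥δ.range) : ↥A), by
        have h5 := x.2
        rw [MonoidHom.mem_ker, hδ₂] at h5
        exact MonoidHom.mem_ker.mpr h5⟩ : ↥δ.ker))
    intro x y hxy
    apply Subtype.ext
    apply Subtype.ext
    exact congrArg (fun z : ↥δ.ker => (z : ↥A)) hxy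
  rw [← hkercard, h1, h2]
  calc Nat.card δ₂.range * Nat.card δ₂.ker * Nat.card δ.ker
      ≤ Nat.card δ.ker * Nat.card δ.ker * Nat.card δ.ker :=
        Nat.mul_le_mul_right _ (Nat.mul_le_mul h3 h4)
    _ = Nat.card δ.ker ^ 3 := by ring

set_option maxHeartbeats 1600000 in
/-- a `3`-group of `3`-rank at least `4` is `2`-connected -/
theorem two_connected {P : Type*} [Group P] [Finite P] (hP : IsPGroup 3 P)
    (hrk : ¬ Cfsg.PRankLE 3 3 P) : Cfsg.IsKConnected 3 2 P := by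
  classical
  haveI : Fact (Nat.Prime 3) := ⟨Nat.prime_three⟩
  haveI hnil : Group.IsNilpotent P := hP.isNilpotent
  have hpow : ∀ K : Subgroup P, ∃ n, Nat.card K = 3 ^ n :=
    fun K => (hP.to_subgroup K).exists_card_eq
  have hlt_pow : ∀ (K : Subgroup P) (m : ℕ), 3 ^ m < Nat.card K → 3 ^ (m + 1) ≤ Nat.card K := by
    intro K m h
    obtain ⟨n, hn⟩ := hpow K
    rw [hn] at h ⊢
    have h1 : m < n := (Nat.pow_lt_pow_iff_right (by norm_num)).mp h
    exact Nat.pow_le_pow_right (by norm_num) h1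
  unfold Cfsg.PRankLE at hrk
  push Not at hrk
  obtain ⟨E₀, hE₀c, hE₀e, hE₀card⟩ := hrk
  have hE₀4 : 3 ^ 4 ≤ Nat.card E₀ := hlt_pow E₀ 3 hE₀card
  obtain ⟨A, hAn, hAe, hA4⟩ := main (by norm_num) hP E₀ ⟨hE₀c, hE₀e⟩ hE₀4
  haveI := hAn
  have hAbot : ¬ A ≤ ⊥ := by
    intro h
    have h1 := Subgroup.card_le_of_le h
    rw [hA4, Subgroup.card_bot] at h1
    norm_num at h1
  obtain ⟨z, hzA, hz1, hzc⟩ := exists_comm_mem A ⊥ hAbot
  have hz1' : z ≠ 1 := fun h => hz1 (by rw [h]; exact Subgroup.one_mem _)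
  have hzcomm : ∀ g : P, g * z = z * g :=
    fun g => commutatorElement_eq_one_iff_mul_comm.mp (Subgroup.mem_bot.mp (hzc g))
  have hz3 : z ^ 3 = 1 := hAe.2 z hzA
  have hzcard : Nat.card (Subgroup.zpowers z) = 3 := by
    rw [Nat.card_zpowers]
    exact orderOf_eq_prime hz3 hz1'
  have key : ∀ E : Subgroup P, IsElementaryAbelian 3 E → 3 ^ 2 ≤ Nat.card E →
      ∃ E₁ F : Subgroup P,
        (IsElementaryAbelian 3 E ∧ 3 ^ 2 ≤ Nat.card ↥E ∧ IsElementaryAbelian 3 E₁ ∧
          3 ^ 2 ≤ Nat.card ↥E₁ ∧ ∀ a ∈ E, ∀ b ∈ E₁, a * b = b * a) ∧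
        (IsElementaryAbelian 3 E₁ ∧ 3 ^ 2 ≤ Nat.card ↥E₁ ∧ IsElementaryAbelian 3 F ∧
          3 ^ 2 ≤ Nat.card ↥F ∧ ∀ a ∈ E₁, ∀ b ∈ F, a * b = b * a) ∧
        (IsElementaryAbelian 3 F ∧ 3 ^ 2 ≤ Nat.card ↥F ∧ IsElementaryAbelian 3 A ∧
          3 ^ 2 ≤ Nat.card ↥A ∧ ∀ a ∈ F, ∀ b ∈ A, a * b = b * a) := by
    intro E hEe hE2
    obtain ⟨f, hfE, hfz⟩ : ∃ f ∈ E, f ∉ Subgroup.zpowers z := by
      by_contra hcon
      push Not at hcon
      have h1 : E ≤ Subgroup.zpowers z := hcon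
      have h2 := Subgroup.card_le_of_le h1
      rw [hzcard] at h2
      norm_num at hE2
      omega
    have hf3 : f ^ 3 = 1 := hEe.2 f hfE
    have hE₁e : IsElementaryAbelian 3 (Subgroup.closure ({z, f} : Set P)) := by
      apply ea_closure
      · intro x hx y hy
        rcases hx with rfl | hx <;> rcases hy with rfl | hy
        · rfl
        · rw [Set.mem_singleton_iff] at hy; rw [hy]; exact (hzcomm f).symm
        · rw [Set.mem_singleton_iff] at hx; rw [hx]; exact hzcomm f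
        · rw [Set.mem_singleton_iff] at hx hy; rw [hx, hy]
      · intro x hx
        rcases hx with rfl | hx
        · exact hz3
        · rw [Set.mem_singleton_iff] at hx; rw [hx]; exact hf3
    have hzE₁ : z ∈ Subgroup.closure ({z, f} : Set P) :=
      Subgroup.subset_closure (Set.mem_insert _ _)
    have hfE₁ : f ∈ Subgroup.closure ({z, f} : Set P) :=
      Subgroup.subset_closure (Set.mem_insert_of_mem _ rfl)
    have hE₁2 : 3 ^ 2 ≤ Nat.card (Subgroup.closure ({z, f} : Set P)) := by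
      apply hlt_pow _ 1
      by_contra hcon
      push Not at hcon
      have hle : Subgroup.zpowers z ≤ Subgroup.closure ({z, f} : Set P) := by
        rw [Subgroup.zpowers_le]; exact hzE₁
      have h1 := Subgroup.eq_of_le_of_card_ge hle (by rw [hzcard]; simpa using hcon)
      exact hfz (h1 ▸ hfE₁)
    have hEE₁ : ∀ a ∈ E, ∀ b ∈ Subgroup.closure ({z, f} : Set P), a * b = b * a := by
      intro a ha b hb
      have hle : Subgroup.closure ({z, f} : Set P) ≤ Subgroup.centralizer {a} := by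
        rw [Subgroup.closure_le]
        intro x hx
        rw [SetLike.mem_coe, Subgroup.mem_centralizer_iff]
        intro h hh
        rw [Set.mem_singleton_iff] at hh
        rw [hh]
        rcases hx with rfl | hx
        · exact hzcomm a
        · rw [Set.mem_singleton_iff] at hx; rw [hx]; exact ea_comm hEe ha hfE
      exact Subgroup.mem_centralizer_iff.mp (hle hb) a rfl
    have hFe : IsElementaryAbelian 3 (A ⊓ Subgroup.centralizer {f}) := ea_mono hAe inf_le_left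
    have hF2 : 3 ^ 2 ≤ Nat.card (A ⊓ Subgroup.centralizer {f} : Subgroup P) := by
      have h1 := card_le_cube A hAe f hf3
      rw [hA4] at h1
      obtain ⟨n, hn⟩ := hpow (A ⊓ Subgroup.centralizer {f})
      rw [hn] at h1 ⊢
      have h2 : ((3 : ℕ) ^ n) ^ 3 = 3 ^ (n * 3) := by rw [pow_mul]
      rw [h2] at h1
      have h3 : 4 ≤ n * 3 := (Nat.pow_le_pow_iff_right (by norm_num)).mp h1
      exact Nat.pow_le_pow_right (by norm_num) (by omega)
    have hE₁F : ∀ a ∈ Subgroup.closure ({z, f} : Set P),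
        ∀ b ∈ A ⊓ Subgroup.centralizer {f}, a * b = b * a := by
      intro a ha b hb
      have hle : Subgroup.closure ({z, f} : Set P) ≤ Subgroup.centralizer {b} := by
        rw [Subgroup.closure_le]
        intro x hx
        rw [SetLike.mem_coe, Subgroup.mem_centralizer_iff]
        intro h hh
        rw [Set.mem_singleton_iff] at hh
        rw [hh]
        rcases hx with rfl | hx
        · exact hzcomm b
        · rw [Set.mem_singleton_iff] at hx; rw [hx]
          exact (Subgroup.mem_centralizer_iff.mp (Subgroup.mem_inf.mp hb).2 f rfl).symm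
      exact (Subgroup.mem_centralizer_iff.mp (hle ha) b rfl).symm
    have hFA : ∀ a ∈ A ⊓ Subgroup.centralizer {f}, ∀ b ∈ A, a * b = b * a :=
      fun a ha b hb => ea_comm hAe (Subgroup.mem_inf.mp ha).1 hb
    have hA2 : 3 ^ 2 ≤ Nat.card A := by rw [hA4]; norm_num
    exact ⟨_, _, ⟨hEe, hE2, hE₁e, hE₁2, hEE₁⟩, ⟨hE₁e, hE₁2, hFe, hF2, hE₁F⟩,
      ⟨hFe, hF2, hAe, hA2, hFA⟩⟩
  unfold Cfsg.IsKConnected
  intro E E' hEe hE2 hE'e hE'2
  obtain ⟨E₁, F, h1, h2, h3⟩ := key E hEe hE2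
  obtain ⟨E₁', F', h1', h2', h3'⟩ := key E' hE'e hE'2
  refine Relation.ReflTransGen.trans (b := A) ?_ ?_
  · exact Relation.ReflTransGen.tail (Relation.ReflTransGen.tail
      (Relation.ReflTransGen.single h1) h2) h3
  · have r3 : IsElementaryAbelian 3 A ∧ 3 ^ 2 ≤ Nat.card ↥A ∧ IsElementaryAbelian 3 F' ∧
        3 ^ 2 ≤ Nat.card ↥F' ∧ ∀ a ∈ A, ∀ b ∈ F', a * b = b * a := by
      obtain ⟨a, b, c, d, e⟩ := h3'
      exact ⟨c, d, a, b, fun x hx y hy => (e y hy x hx).symm⟩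
    have r2 : IsElementaryAbelian 3 F' ∧ 3 ^ 2 ≤ Nat.card ↥F' ∧ IsElementaryAbelian 3 E₁' ∧
        3 ^ 2 ≤ Nat.card ↥E₁' ∧ ∀ a ∈ F', ∀ b ∈ E₁', a * b = b * a := by
      obtain ⟨a, b, c, d, e⟩ := h2'
      exact ⟨c, d, a, b, fun x hx y hy => (e y hy x hx).symm⟩
    have r1 : IsElementaryAbelian 3 E₁' ∧ 3 ^ 2 ≤ Nat.card ↥E₁' ∧ IsElementaryAbelian 3 E' ∧
        3 ^ 2 ≤ Nat.card ↥E' ∧ ∀ a ∈ E₁', ∀ b ∈ E', a * b = b * a := by
      obtain ⟨a, b, c, d, e⟩ := h1'
      exact ⟨c, d, a, b, fun x hx y hy => (e y hy x hx).symm⟩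
    exact Relation.ReflTransGen.tail (Relation.ReflTransGen.tail
      (Relation.ReflTransGen.single r3) r2) r1

end Cfsg.Agent.Lib.Helper25.TwoConn
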